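/-
Herstein: a group with an abelian maximal subgroup has derived length at most three.
-/
import Cfsg.Agent.Frob.Kernel
import Cfsg.Agent.CoprimeAction.Invariant
import Cfsg.Agent.Hall.Basic

set_option autoImplicit false
set_option linter.style.haveILetI false

namespace CfsgLib.Hall.Herstein

open scoped Pointwise commutatorElement

theorem derived_le_of_abelian_quotient {G : Type*} [Group G] (N : Subgroup G) [N.Normal]
    (h : ∀ a b : G ⧸ N, a * b = b * a) : derivedSeries G 1 ≤ N := by
  rw [derivedSeries_succ, derivedSeries_zero, Subgroup.commutator_le]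
  intro a _ b _
  refine (QuotientGroup.eq_one_iff _).mp ?_
  change QuotientGroup.mk' N ⁅a, b⁆ = 1
  rw [map_commutatorElement, commutatorElement_eq_one_iff_mul_comm]
  exact h _ _

theorem derived_one_eq_bot_of_comm {G : Type*} [Group G] {H : Subgroup G}
    (h : ∀ a ∈ H, ∀ b ∈ H, a * b = b * a) : ⁅H, H⁆ = ⊥ := by
  rw [eq_bot_iff, Subgroup.commutator_le]
  intro a ha b hb
  rw [Subgroup.mem_bot, commutatorElement_eq_one_iff_mul_comm]
  exact h a ha b hb

/-- Frobenius groups with abelian maximal complement are metabelian. -/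
theorem frobenius_abelian_maximal {Q : Type*} [Group Q] [Finite Q] (B : Subgroup Q) (hB : IsCoatom B)
    [IsMulCommutative B] (hF : Cfsg.IsFrobeniusComplement B) : derivedSeries Q 2 = ⊥ := by
  set K := Frob.kernel hF with hK
  haveI := Frob.kernel_normal hF
  have hc : Subgroup.IsComplement' K B := Frob.isComplement'_kernel hF
  have hne : K ≠ ⊥ := Frob.kernel_ne_bot hF
  have hnorm : B ≤ Subgroup.normalizer (K : Set Q) := by
    rw [Subgroup.normalizer_eq_top_iff.mpr inferInstance]; exact le_top
  have hcop : (Nat.card B).Coprime (Nat.card K) := by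
    rw [Frob.card_kernel_subgroup hF]
    exact Frob.coprime_card_index hF
  obtain ⟨r, hr, hrK⟩ := Nat.exists_prime_and_dvd
    (show Nat.card K ≠ 1 from fun h => hne (Subgroup.card_eq_one.mp h))
  haveI := Fact.mk hr
  haveI : Group.IsSolvable B := by
    open scoped IsMulCommutative in exact inferInstance
  obtain ⟨P, hP⟩ := CoprimeAction.exists_invariant_sylow hnorm hcop (Or.inl inferInstance) r
  set R := (P : Subgroup K).map K.subtype with hR
  have hRK : R ≤ K := Subgroup.map_subtype_le _
  -- an invariant subgroup of the kernel is trivial or everything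
  have hinv : ∀ X : Subgroup Q, X ≤ K → B ≤ Subgroup.normalizer (X : Set Q) → X = ⊥ ∨ X = K := by
    intro X hXK hXB
    by_cases hXB' : X ≤ B
    · left
      rw [eq_bot_iff, ← hc.disjoint.eq_bot]
      exact le_inf hXK hXB'
    right
    have htop : B ⊔ X = ⊤ := hB.2 _ (lt_of_le_of_ne le_sup_left fun h => hXB' (h ▸ le_sup_right))
    refine le_antisymm hXK fun x hx => ?_
    obtain ⟨b, hb, y, hy, rfl⟩ := CoprimeAction.exists_mul_of_mem_sup hXB (show x ∈ B ⊔ X by rw [htop]; trivial)
    have hbK : b ∈ K ⊓ B := ⟨by simpa using K.mul_mem hx (K.inv_mem (hXK hy)), hb⟩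
    rw [hc.disjoint.eq_bot, Subgroup.mem_bot] at hbK
    rw [hbK, one_mul]; exact hy
  have hRne : R ≠ ⊥ := fun h => P.ne_bot_of_dvd_card hrK (by
    rwa [hR, Subgroup.map_eq_bot_iff_of_injective _ K.subtype_injective] at h)
  have hRK' : R = K := (hinv R hRK hP).resolve_left hRne
  have hKp : IsPGroup r K := by rw [← hRK']; exact P.2.map _
  haveI := hKp.isNilpotent
  set D := (commutator K).map K.subtype with hD
  have hDK : D ≤ K := Subgroup.map_subtype_le _
  haveI : D.Normal := inferInstance
  have hDlt : D ≠ K := by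
    intro h
    haveI : Nontrivial K := (Subgroup.nontrivial_iff_ne_bot K).mpr hne
    have htop : commutator K = ⊤ := Subgroup.map_injective K.subtype_injective (by
      rw [← hD, h, ← MonoidHom.range_eq_map, Subgroup.range_subtype])
    haveI : Group.IsSolvable K := inferInstance
    exact ne_of_lt (Group.IsSolvable.commutator_lt_top_of_nontrivial K) htop
  have hDbot : D = ⊥ := (hinv D hDK (by rw [Subgroup.normalizer_eq_top_iff.mpr inferInstance]; exact le_top)).resolve_right hDlt
  have hKab : ∀ a ∈ K, ∀ b ∈ K, a * b = b * a := by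
    intro a ha b hb
    have h : commutator K = ⊥ := by
      rwa [hD, Subgroup.map_eq_bot_iff_of_injective _ K.subtype_injective] at hDbot
    rw [commutator_def, eq_bot_iff, Subgroup.commutator_le] at h
    exact congrArg Subtype.val (commutatorElement_eq_one_iff_mul_comm.mp
      (Subgroup.mem_bot.mp (h ⟨a, ha⟩ (Subgroup.mem_top _) ⟨b, hb⟩ (Subgroup.mem_top _))))
  have h1 : derivedSeries Q 1 ≤ K := by
    refine derived_le_of_abelian_quotient K fun a b => hc.symm.QuotientMulEquiv.injective ?_
    rw [map_mul, map_mul, mul_comm' (hc.symm.QuotientMulEquiv a) (hc.symm.QuotientMulEquiv b)]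
  rw [derivedSeries_succ, eq_bot_iff]
  exact (Subgroup.commutator_mono h1 h1).trans (derived_one_eq_bot_of_comm hKab).le

theorem derivedSeries_three {G : Type*} [Group G] [Finite G] (A : Subgroup G) (hA : IsCoatom A)
    [IsMulCommutative A] : derivedSeries G 3 = ⊥ := by
  have hAab : ∀ a ∈ A, ∀ b ∈ A, a * b = b * a := fun a ha b hb =>
    congrArg Subtype.val (mul_comm' (⟨a, ha⟩ : A) ⟨b, hb⟩)
  by_cases hn : A.Normal
  · haveI := hn
    have habq : ∀ a b : G ⧸ A, a * b = b * a := by
      intro a b
      rcases eq_or_ne a 1 with rfl | ha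
      · simp
      obtain ⟨x, rfl⟩ := QuotientGroup.mk'_surjective A a
      have hxA : x ∉ A := fun h => ha ((QuotientGroup.eq_one_iff x).mpr h)
      have htop : A ⊔ Subgroup.zpowers x = ⊤ := hA.2 _ (lt_of_le_of_ne le_sup_left fun h =>
        hxA (h ▸ Subgroup.mem_sup_right (Subgroup.mem_zpowers x)))
      have hb : b ∈ Subgroup.zpowers (QuotientGroup.mk' A x) := by
        have hmap := congrArg (Subgroup.map (QuotientGroup.mk' A)) htop
        rw [Subgroup.map_sup, MonoidHom.map_zpowers, (Subgroup.map_eq_bot_iff _).mpr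
          (by rw [QuotientGroup.ker_mk']), bot_sup_eq,
          Subgroup.map_top_of_surjective _ (QuotientGroup.mk'_surjective A)] at hmap
        rw [hmap]; trivial
      obtain ⟨i, rfl⟩ := Subgroup.mem_zpowers_iff.mp hb
      exact (Commute.self_zpow _ i).eq
    have h1 := derived_le_of_abelian_quotient A habq
    have h2 : derivedSeries G 2 = ⊥ := by
      rw [derivedSeries_succ, eq_bot_iff]
      exact (Subgroup.commutator_mono h1 h1).trans (derived_one_eq_bot_of_comm hAab).le
    rw [derivedSeries_succ, h2, Subgroup.commutator_bot_left]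
  set Z := Subgroup.center G
  have hNA : Subgroup.normalizer (A : Set G) = A := by
    rcases (lt_or_eq_of_le (Subgroup.le_normalizer (H := A))) with h | h
    · exact absurd (Subgroup.normalizer_eq_top_iff.mp (hA.2 _ h)) hn
    · exact h.symm
  have hZA : Z ≤ A := (Subgroup.center_le_normalizer (s := (A : Set G))).trans hNA.le
  have hinter : ∀ g ∉ A, ∀ a ∈ A, a ∈ MulAut.conj g • A → a ∈ Z := by
    intro g hg a ha hag
    have hne : ¬ MulAut.conj g • A ≤ A := fun hle => hg (hNA.le (Subgroup.mem_normalizer_fintype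
      fun x hx => hle ⟨x, hx, rfl⟩))
    have htop : A ⊔ MulAut.conj g • A = ⊤ :=
      hA.2 _ (lt_of_le_of_ne le_sup_left fun h => hne (le_sup_right.trans h.ge))
    have hle : A ⊔ MulAut.conj g • A ≤ Subgroup.centralizer ({a} : Set G) := by
      refine sup_le (fun x hx => Subgroup.mem_centralizer_singleton_iff.mpr (hAab x hx a ha)) ?_
      rintro _ ⟨x, hx, rfl⟩
      obtain ⟨y, hy, rfl⟩ := hag
      refine Subgroup.mem_centralizer_singleton_iff.mpr ?_
      change g * x * g⁻¹ * (g * y * g⁻¹) = g * y * g⁻¹ * (g * x * g⁻¹)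
      calc g * x * g⁻¹ * (g * y * g⁻¹) = g * (x * y) * g⁻¹ := by group
        _ = g * (y * x) * g⁻¹ := by rw [hAab x hx y hy]
        _ = g * y * g⁻¹ * (g * x * g⁻¹) := by group
    refine Subgroup.mem_center_iff.mpr fun x => ?_
    exact Subgroup.mem_centralizer_singleton_iff.mp (hle (htop ▸ Subgroup.mem_top x))
  set f := QuotientGroup.mk' Z with hf
  have hfs : Function.Surjective f := QuotientGroup.mk'_surjective Z
  set B := A.map f with hB
  have hcm : B.comap f = A := by
    rw [hB, Subgroup.comap_map_eq, QuotientGroup.ker_mk', sup_eq_left.mpr hZA]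
  have hBc : IsCoatom B := by
    refine ⟨fun h => hA.1 (by rw [← hcm, h, Subgroup.comap_top]), fun L hL => ?_⟩
    have hlt : A < L.comap f := hcm ▸ (Subgroup.comap_lt_comap_of_surjective hfs).mpr hL
    rw [← Subgroup.map_comap_eq_self_of_surjective hfs L, hA.2 _ hlt, Subgroup.map_top_of_surjective _ hfs]
  have hAZ : A ≠ Z := fun h => hn (h ▸ inferInstanceAs (Subgroup.center G).Normal)
  have hF : Cfsg.IsFrobeniusComplement B := by
    refine ⟨fun h => hAZ (le_antisymm ?_ hZA), hBc.1, fun g hg => ?_⟩
    · rw [← hcm, h, MonoidHom.comap_bot, QuotientGroup.ker_mk']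
    obtain ⟨x, rfl⟩ := hfs g
    have hxA : x ∉ A := fun h => hg ⟨x, h, rfl⟩
    rw [eq_bot_iff]
    rintro _ ⟨⟨a, ha, rfl⟩, ⟨_, ⟨c, hc, rfl⟩, hcc⟩⟩
    rw [Subgroup.mem_bot]
    refine (QuotientGroup.eq_one_iff a).mpr ?_
    have h1 : f (x * c * x⁻¹) = f a := by
      rw [map_mul, map_mul, map_inv]; exact hcc
    have h2 : (x * c * x⁻¹)⁻¹ * a ∈ Z := QuotientGroup.eq.mp h1
    have h3 : x⁻¹ * a * x ∈ A := by
      have h4 : c * (x⁻¹ * ((x * c * x⁻¹)⁻¹ * a) * x) ∈ A := A.mul_mem hc
        (hZA (Subgroup.Normal.conj_mem' inferInstance _ h2 x))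
      convert h4 using 1
      group
    exact hinter x hxA a ha ⟨_, h3, by simp [mul_assoc]⟩
  haveI : IsMulCommutative B := inferInstance
  have h2 := frobenius_abelian_maximal B hBc hF
  have h3 : derivedSeries G 2 ≤ Z := by
    rw [← QuotientGroup.ker_mk' Z, ← Subgroup.map_eq_bot_iff, eq_bot_iff, ← h2]
    exact map_derivedSeries_le_derivedSeries f 2
  rw [derivedSeries_succ, eq_bot_iff]
  refine (Subgroup.commutator_mono h3 h3).trans (derived_one_eq_bot_of_comm fun a ha b _ => ?_).le
  exact (Subgroup.mem_center_iff.mp ha b).symm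

end CfsgLib.Hall.Herstein
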