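/-
Carter subgroups of finite solvable groups: existence, conjugacy, relation to system normalizers.
-/
import Cfsg.Agent.Hall.Pi
import Cfsg.Agent.Hall.System
import Cfsg.Agent.Hall.SystemMore

set_option autoImplicit false
set_option linter.style.haveILetI false

namespace CfsgLib.Hall

open scoped Pointwise

variable {G : Type*} [Group G]

theorem eq_top_of_normalizer_eq_self [Finite G] [Group.IsNilpotent G] {H : Subgroup G}
    (h : Subgroup.normalizer (H : Set G) = H) : H = ⊤ :=
  (normalizerCondition_iff_only_full_group_self_normalizing.mp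
    Group.normalizerCondition_of_isNilpotent) H h

theorem exists_prime_pow_of_isPiHall [Finite G] {p : ℕ} [Fact p.Prime] {Q : Subgroup G}
    (hQ : Cfsg.IsPiHall {r | r ≠ p} Q) : ∃ k, Q.index = p ^ k :=
  ⟨_, Nat.eq_prime_pow_of_unique_prime_dvd Subgroup.index_ne_zero_of_finite fun {d} hd hdQ => by
    by_contra hne
    exact hQ.2 d hd hne hdQ⟩

/-- A normal Hall subgroup contains every subgroup of the same order. -/
theorem le_of_coprime_index [Finite G] {R S : Subgroup G} [R.Normal]
    (hco : (Nat.card S).Coprime R.index) : S ≤ R := by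
  intro x hx
  refine (QuotientGroup.eq_one_iff x).mp (orderOf_eq_one_iff.mp (Nat.eq_one_of_dvd_coprimes hco ?_ ?_))
  · exact (orderOf_map_dvd (QuotientGroup.mk' R) x).trans (S.orderOf_dvd_natCard hx)
  · exact orderOf_dvd_natCard _

/-- Hall subgroups of nilpotent groups are normal. -/
theorem normal_of_isPiHall [Finite G] [Group.IsNilpotent G] {π : Set ℕ} {R : Subgroup G}
    (hR : Cfsg.IsPiHall π R) : R.Normal := by
  rw [← Subgroup.normalizer_eq_top_iff]
  refine eq_top_of_normalizer_eq_self (le_antisymm (fun g hg => ?_) Subgroup.le_normalizer)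
  set M := Subgroup.normalizer (R : Set G)
  have hgle : MulAut.conj g • R ≤ M := by
    rintro _ ⟨x, hx, rfl⟩
    exact (Subgroup.mem_normalizer_iff.mp hg x).mp (Subgroup.le_normalizer hx)
  haveI : (R.subgroupOf M).Normal := Subgroup.normal_in_normalizer
  have hle : MulAut.conj g • R ≤ R := by
    intro x hx
    have hco : (Nat.card ((MulAut.conj g • R).subgroupOf M)).Coprime (R.subgroupOf M).index := by
      rw [Nat.card_congr (Subgroup.subgroupOfEquivOfLe hgle).toEquiv, card_conj_smul]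
      exact (IsPiHall.coprime hR).coprime_dvd_right
        (Subgroup.relIndex_dvd_index_of_le Subgroup.le_normalizer)
    exact le_of_coprime_index hco (show (⟨x, hgle hx⟩ : M) ∈ _ from hx)
  exact mem_normalizer_of_conj_smul_eq
    (Subgroup.eq_of_le_of_card_ge hle (by rw [card_conj_smul]))

theorem isNilpotent_of_injective {H : Type*} [Group H] [Group.IsNilpotent H] (f : G →* H)
    (hf : Function.Injective f) : Group.IsNilpotent G :=
  Group.nilpotent_of_mulEquiv (MonoidHom.ofInjective hf).symm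

/-- With a normal `p`-subgroup with nilpotent factor group, the normalizer of a Hall `p'`-subgroup
is a Carter subgroup supplementing it. -/
theorem carter_normalizer_hall [Finite G] {p : ℕ} [Fact p.Prime] (N : Subgroup G) [N.Normal]
    (hN : IsPGroup p N) (hGN : Group.IsNilpotent (G ⧸ N)) {Q : Subgroup G}
    (hQ : Cfsg.IsPiHall {r | r ≠ p} Q) :
    Cfsg.IsCarterSubgroup (Subgroup.normalizer (Q : Set G)) ∧
      N ⊔ Subgroup.normalizer (Q : Set G) = ⊤ := by
  have hp : p.Prime := Fact.out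
  haveI := hGN
  haveI := hN.isNilpotent
  haveI : Group.IsSolvable G :=
    Group.isSolvable_of_ker_le_range N.subtype (QuotientGroup.mk' N)
      (by rw [QuotientGroup.ker_mk', Subgroup.range_subtype])
  set C := Subgroup.normalizer (Q : Set G) with hC
  have hQC : Q ≤ C := Subgroup.le_normalizer
  haveI : (Q.subgroupOf C).Normal := Subgroup.normal_in_normalizer
  obtain ⟨k, hk⟩ := exists_prime_pow_of_isPiHall hQ
  refine ⟨⟨?_, le_antisymm (fun g hg => ?_) Subgroup.le_normalizer⟩, ?_⟩
  · have hrel : Q.relIndex C ∣ p ^ k := hk ▸ Subgroup.relIndex_dvd_index_of_le hQC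
    haveI : Group.IsNilpotent (C ⧸ Q.subgroupOf C) := by
      obtain ⟨j, -, hj⟩ := (Nat.dvd_prime_pow hp).mp hrel
      exact (IsPGroup.of_card (G := C ⧸ Q.subgroupOf C) hj).isNilpotent
    refine isNilpotent_of_injective
      (((QuotientGroup.mk' N).comp C.subtype).prod (QuotientGroup.mk' (Q.subgroupOf C))) ?_
    rw [← MonoidHom.ker_eq_bot_iff, eq_bot_iff]
    intro x hx
    rw [MonoidHom.mem_ker, MonoidHom.prod_apply, Prod.mk_eq_one] at hx
    have h1 : (x : G) ∈ N := (QuotientGroup.eq_one_iff _).mp hx.1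
    have h2 : (x : G) ∈ Q := Subgroup.mem_subgroupOf.mp ((QuotientGroup.eq_one_iff _).mp hx.2)
    have hco : (Nat.card N).Coprime (Nat.card Q) := by
      obtain ⟨i, hi⟩ := hN.exists_card_eq
      rw [hi]
      exact Nat.Coprime.pow_left _ ((hp.coprime_iff_not_dvd).mpr fun h => hQ.1 p hp h rfl)
    have h3 : (x : G) ∈ N ⊓ Q := ⟨h1, h2⟩
    rw [inf_eq_bot_of_coprime_card hco, Subgroup.mem_bot] at h3
    rw [Subgroup.mem_bot]
    exact Subtype.ext h3
  · -- self-normalizing
    have hle : MulAut.conj g • Q ≤ C := (conj_smul_eq_of_mem_normalizer hg) ▸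
      Subgroup.pointwise_smul_le_pointwise_smul_iff.mpr hQC
    have hQg : MulAut.conj g • Q ≤ Q := by
      intro x hx
      by_contra hxQ
      have hrel : Q.relIndex C ∣ p ^ k := hk ▸ Subgroup.relIndex_dvd_index_of_le hQC
      have h1 : orderOf (QuotientGroup.mk' (Q.subgroupOf C) ⟨x, hle hx⟩) ∣ p ^ k :=
        (orderOf_dvd_natCard _).trans hrel
      have h2 : orderOf (QuotientGroup.mk' (Q.subgroupOf C) ⟨x, hle hx⟩) ∣ Nat.card Q := by
        refine (orderOf_map_dvd _ _).trans ?_
        rw [Subgroup.orderOf_mk, ← card_conj_smul g Q]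
        exact (MulAut.conj g • Q).orderOf_dvd_natCard hx
      have hco : (Nat.card Q).Coprime (p ^ k) :=
        Nat.Coprime.pow_right _ ((hp.coprime_iff_not_dvd).mpr fun h => hQ.1 p hp h rfl).symm
      have h3 := orderOf_eq_one_iff.mp (Nat.eq_one_of_dvd_coprimes hco h2 h1)
      exact hxQ (Subgroup.mem_subgroupOf.mp ((QuotientGroup.eq_one_iff _).mp h3))
    exact mem_normalizer_of_conj_smul_eq
      (Subgroup.eq_of_le_of_card_ge hQg (by rw [card_conj_smul]))
  · haveI := normal_of_isPiHall (IsPiHall.map_mk' hQ N)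
    have hL : Q ⊔ N = (Q.map (QuotientGroup.mk' N)).comap (QuotientGroup.mk' N) := by
      rw [Subgroup.comap_map_eq, QuotientGroup.ker_mk']
    haveI : (Q ⊔ N).Normal := hL ▸ inferInstance
    have h := frattini_hall (Q ⊔ N) inferInstance Q le_sup_left
      ((IsPiHall.coprime hQ).coprime_dvd_right (Subgroup.relIndex_dvd_index_of_le le_sup_left))
    refine eq_top_iff.mpr (h ▸ sup_le (sup_le (hQC.trans le_sup_right) le_sup_left) le_sup_right)

theorem isCarter_conj [Finite G] {C : Subgroup G} (hC : Cfsg.IsCarterSubgroup C) (g : G) :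
    Cfsg.IsCarterSubgroup (MulAut.conj g • C) := by
  refine ⟨?_, ?_⟩
  · haveI := hC.1
    exact Group.nilpotent_of_mulEquiv (Subgroup.equivSMul (MulAut.conj g) C)
  · ext x
    constructor
    · intro hx
      have h : g⁻¹ * x * g ∈ Subgroup.normalizer (C : Set G) := by
        refine mem_normalizer_of_conj_smul_eq ?_
        rw [map_mul, map_mul, mul_smul, mul_smul, conj_smul_eq_of_mem_normalizer hx, ← mul_smul,
          ← map_mul, inv_mul_cancel, map_one, one_smul]
      rw [hC.2] at h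
      exact ⟨_, h, by change g * (g⁻¹ * x * g) * g⁻¹ = x; simp [mul_assoc]⟩
    · exact fun hx => Subgroup.le_normalizer hx

theorem isCarter_subgroupOf {C H : Subgroup G} (hC : Cfsg.IsCarterSubgroup C) (hCH : C ≤ H) :
    Cfsg.IsCarterSubgroup (C.subgroupOf H) := by
  refine ⟨?_, ?_⟩
  · haveI := hC.1
    exact Group.nilpotent_of_mulEquiv (Subgroup.subgroupOfEquivOfLe hCH).symm
  · rw [← Subgroup.subgroupOf_normalizer_eq hCH, hC.2]

/-- The image of a Carter subgroup, given conjugacy in proper subgroups. -/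
theorem isCarter_map_of_conj [Finite G] {C : Subgroup G} (hC : Cfsg.IsCarterSubgroup C) (N : Subgroup G)
    [N.Normal]
    (hconj : C ⊔ N ≠ ⊤ → ∀ C' : Subgroup G, Cfsg.IsCarterSubgroup C' → C' ≤ C ⊔ N →
      ∃ h ∈ C ⊔ N, MulAut.conj h • C' = C) :
    Cfsg.IsCarterSubgroup (C.map (QuotientGroup.mk' N)) := by
  haveI := hC.1
  refine ⟨Group.nilpotent_of_surjective ((QuotientGroup.mk' N).subgroupMap C)
    ((QuotientGroup.mk' N).subgroupMap_surjective C), le_antisymm (fun x hx => ?_) Subgroup.le_normalizer⟩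
  obtain ⟨g, rfl⟩ := QuotientGroup.mk'_surjective N x
  have hcm : (C.map (QuotientGroup.mk' N)).comap (QuotientGroup.mk' N) = C ⊔ N := by
    rw [Subgroup.comap_map_eq, QuotientGroup.ker_mk']
  suffices hg : g ∈ C ⊔ N by
    rw [← hcm] at hg; exact hg
  by_cases htop : C ⊔ N = ⊤
  · rw [htop]; trivial
  have hgn : g ∈ Subgroup.normalizer ((C ⊔ N : Subgroup G) : Set G) := by
    rw [← hcm, ← Subgroup.comap_normalizer_eq_of_surjective _ (QuotientGroup.mk'_surjective N)]
    exact hx
  have hle : MulAut.conj g • C ≤ C ⊔ N := (conj_smul_eq_of_mem_normalizer hgn) ▸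
    Subgroup.pointwise_smul_le_pointwise_smul_iff.mpr le_sup_left
  obtain ⟨h, hh, he⟩ := hconj htop _ (isCarter_conj hC g) hle
  rw [← mul_smul, ← map_mul] at he
  have hmem : h * g ∈ C := hC.2 ▸ mem_normalizer_of_conj_smul_eq he
  simpa using (C ⊔ N).mul_mem ((C ⊔ N).inv_mem hh) (le_sup_left (b := N) hmem)

theorem eq_of_carter_le [Finite G] {C M : Subgroup G} (hC : Cfsg.IsCarterSubgroup C) (hCM : C ≤ M)
    (hM : Group.IsNilpotent M) : C = M := by
  haveI := hM
  have h : C.subgroupOf M = ⊤ := eq_top_of_normalizer_eq_self (isCarter_subgroupOf hC hCM).2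
  exact le_antisymm hCM (Subgroup.subgroupOf_eq_top.mp h)

universe u

theorem carter_conj_aux : ∀ (k : ℕ) {G : Type u} [Group G] [Finite G] [Group.IsSolvable G],
    Nat.card G = k → ∀ C₁ C₂ : Subgroup G, Cfsg.IsCarterSubgroup C₁ → Cfsg.IsCarterSubgroup C₂ →
      ∃ g : G, MulAut.conj g • C₁ = C₂ := by
  intro k
  induction k using Nat.strong_induction_on with
  | _ k IH =>
  intro G _ _ _ hk C₁ C₂ h₁ h₂
  subst hk
  rcases subsingleton_or_nontrivial G with hs | hnt
  · exact ⟨1, Subsingleton.elim _ _⟩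
  -- conjugacy inside proper subgroups
  have hsub : ∀ H : Subgroup G, H ≠ ⊤ → ∀ A B : Subgroup G, Cfsg.IsCarterSubgroup A →
      Cfsg.IsCarterSubgroup B → A ≤ H → B ≤ H → ∃ h ∈ H, MulAut.conj h • A = B := by
    intro H hH A B hA hB hAH hBH
    obtain ⟨h, hh⟩ := IH _ (lt_of_le_of_ne (Subgroup.card_le_card_group H)
      fun e => hH (Subgroup.eq_top_of_card_eq H e)) (G := H) rfl _ _
      (isCarter_subgroupOf hA hAH) (isCarter_subgroupOf hB hBH)
    refine ⟨h, h.2, ?_⟩
    rw [← Subgroup.map_subgroupOf_eq_of_le hBH, ← hh]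
    ext x
    simp only [Subgroup.mem_smul_pointwise_iff_exists, Subgroup.mem_map, Subgroup.mem_subgroupOf]
    constructor
    · rintro ⟨a, ha, rfl⟩
      exact ⟨MulAut.conj h • ⟨a, hAH ha⟩, ⟨⟨a, hAH ha⟩, ha, rfl⟩, rfl⟩
    · rintro ⟨_, ⟨a, ha, rfl⟩, rfl⟩
      exact ⟨a, ha, rfl⟩
  obtain ⟨N, hN⟩ := exists_isMinNormal (G := G)
  haveI := hN.1
  obtain ⟨p, hp, -, hNp, -⟩ := hN.elementaryAbelian
  haveI := Fact.mk hp
  have hmap : ∀ C : Subgroup G, Cfsg.IsCarterSubgroup C →
      Cfsg.IsCarterSubgroup (C.map (QuotientGroup.mk' N)) := fun C hC =>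
    isCarter_map_of_conj hC N fun hne C' hC' hle => hsub _ hne C' C hC' hC hle le_sup_left
  have hq : Nat.card (G ⧸ N) < Nat.card G := by
    rw [N.card_eq_card_quotient_mul_card_subgroup]
    exact lt_mul_of_one_lt_right Nat.card_pos (N.one_lt_card_iff_ne_bot.mpr hN.2.1)
  obtain ⟨x, hx⟩ := IH _ hq (G := G ⧸ N) rfl _ _ (hmap _ h₁) (hmap _ h₂)
  obtain ⟨g, rfl⟩ := QuotientGroup.mk'_surjective N x
  have h₁' := isCarter_conj h₁ g
  have hsup : MulAut.conj g • C₁ ⊔ N = C₂ ⊔ N := by
    have hm : (MulAut.conj g • C₁).map (QuotientGroup.mk' N) = C₂.map (QuotientGroup.mk' N) := by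
      rw [← hx]
      ext y
      simp only [Subgroup.mem_smul_pointwise_iff_exists, Subgroup.mem_map]
      constructor
      · rintro ⟨_, ⟨a, ha, rfl⟩, rfl⟩
        exact ⟨_, ⟨a, ha, rfl⟩, by simp⟩
      · rintro ⟨_, ⟨a, ha, rfl⟩, rfl⟩
        exact ⟨_, ⟨a, ha, rfl⟩, by simp⟩
    have := congrArg (Subgroup.comap (QuotientGroup.mk' N)) hm
    rwa [Subgroup.comap_map_eq, Subgroup.comap_map_eq, QuotientGroup.ker_mk'] at this
  suffices hfin : ∃ h : G, MulAut.conj h • (MulAut.conj g • C₁) = C₂ by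
    obtain ⟨h, hh⟩ := hfin
    exact ⟨h * g, by rw [map_mul, mul_smul]; exact hh⟩
  by_cases htop : C₂ ⊔ N = ⊤
  · have hnil : Group.IsNilpotent (G ⧸ N) := by
      have hm : C₂.map (QuotientGroup.mk' N) = ⊤ := by
        rw [← Subgroup.map_comap_eq_self_of_surjective (QuotientGroup.mk'_surjective N)
          (C₂.map (QuotientGroup.mk' N)), Subgroup.comap_map_eq, QuotientGroup.ker_mk', htop,
          Subgroup.map_top_of_surjective _ (QuotientGroup.mk'_surjective N)]
      haveI := (hmap _ h₂).1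
      exact Group.nilpotent_of_mulEquiv ((MulEquiv.subgroupCongr hm).trans Subgroup.topEquiv)
    have key : ∀ C : Subgroup G, Cfsg.IsCarterSubgroup C → C ⊔ N = ⊤ →
        ∃ Q : Subgroup G, Cfsg.IsPiHall {r | r ≠ p} Q ∧ C = Subgroup.normalizer (Q : Set G) := by
      intro C hC hCN
      haveI := hC.1
      obtain ⟨Q₀, hQ₀⟩ := exists_isPiHall (G := C) {r : ℕ | r ≠ p}
      haveI := normal_of_isPiHall hQ₀
      set Q := Q₀.map C.subtype with hQdef
      have hQ : Cfsg.IsPiHall {r | r ≠ p} Q := by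
        refine ⟨fun q hq hd => hQ₀.1 q hq (by rwa [hQdef, Subgroup.card_map_of_injective C.subtype_injective] at hd),
          fun q hq hqp hd => ?_⟩
        rw [hQdef, Subgroup.index_map_subtype] at hd
        rcases hq.dvd_mul.mp hd with h | h
        · exact hQ₀.2 q hq hqp h
        · obtain ⟨i, hi⟩ := hNp.exists_card_eq
          have hidx : C.index ∣ p ^ i := by
            have hc := card_sup_mul_card_inf N C
            rw [sup_comm, hCN, Subgroup.card_top, ← C.card_mul_index, hi, mul_comm (p ^ i),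
              mul_assoc] at hc
            exact ⟨_, (Nat.eq_of_mul_eq_mul_left Nat.card_pos hc).symm⟩
          exact hqp ((Nat.prime_dvd_prime_iff_eq hq hp).mp (hq.dvd_of_dvd_pow (h.trans hidx)))
      have hle : C ≤ Subgroup.normalizer (Q : Set G) := by
        rw [← Subgroup.normal_subgroupOf_iff_le_normalizer (Subgroup.map_subtype_le Q₀),
          Subgroup.subgroupOf, Subgroup.comap_map_eq_self_of_injective C.subtype_injective]
        infer_instance
      exact ⟨Q, hQ, eq_of_carter_le hC hle (carter_normalizer_hall N hNp hnil hQ).1.1⟩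
    obtain ⟨Q₁, hQ₁, e₁⟩ := key _ h₁' (hsup.trans htop)
    obtain ⟨Q₂, hQ₂, e₂⟩ := key _ h₂ htop
    obtain ⟨h, hh⟩ := pi_conj hQ₁ hQ₂
    refine ⟨h, ?_⟩
    rw [e₁, e₂, ← hh]
    ext y
    simp only [Subgroup.mem_smul_pointwise_iff_exists]
    constructor
    · rintro ⟨a, ha, rfl⟩
      refine mem_normalizer_of_conj_smul_eq ?_
      have : MulAut.conj h • a = h * a * h⁻¹ := rfl
      rw [this, map_mul, map_mul, mul_smul, mul_smul, ← mul_smul (MulAut.conj h⁻¹), ← map_mul,
        inv_mul_cancel, map_one, one_smul, conj_smul_eq_of_mem_normalizer ha]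
    · intro hy
      refine ⟨h⁻¹ * y * h, mem_normalizer_of_conj_smul_eq ?_, by
        change h * (h⁻¹ * y * h) * h⁻¹ = y; simp [mul_assoc]⟩
      rw [map_mul, map_mul, mul_smul, mul_smul, conj_smul_eq_of_mem_normalizer hy, ← mul_smul,
        ← map_mul, inv_mul_cancel, map_one, one_smul]
  · obtain ⟨h, -, hh⟩ := hsub _ htop _ _ h₁' h₂ (hsup ▸ le_sup_left) le_sup_left
    exact ⟨h, hh⟩

/-- Carter subgroups of a finite solvable group are conjugate. -/
theorem carter_conj {G : Type*} [Group G] [Finite G] [Group.IsSolvable G] {C₁ C₂ : Subgroup G}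
    (h₁ : Cfsg.IsCarterSubgroup C₁) (h₂ : Cfsg.IsCarterSubgroup C₂) :
    ∃ g : G, MulAut.conj g • C₁ = C₂ :=
  carter_conj_aux _ rfl C₁ C₂ h₁ h₂

/-- Images of Carter subgroups are Carter subgroups. -/
theorem isCarter_map {G : Type*} [Group G] [Finite G] [Group.IsSolvable G] {C : Subgroup G}
    (hC : Cfsg.IsCarterSubgroup C) (N : Subgroup G) [N.Normal] :
    Cfsg.IsCarterSubgroup (C.map (QuotientGroup.mk' N)) :=
  isCarter_map_of_conj hC N fun _ C' hC' hle => by
    obtain ⟨h, hh⟩ := carter_conj (isCarter_subgroupOf hC' hle)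
      (isCarter_subgroupOf hC (le_sup_left : C ≤ C ⊔ N))
    refine ⟨h, h.2, ?_⟩
    refine Eq.trans ?_ (Subgroup.map_subgroupOf_eq_of_le (le_sup_left : C ≤ C ⊔ N))
    rw [← hh]
    ext x
    simp only [Subgroup.mem_smul_pointwise_iff_exists, Subgroup.mem_map, Subgroup.mem_subgroupOf]
    constructor
    · rintro ⟨a, ha, rfl⟩
      exact ⟨MulAut.conj h • ⟨a, hle ha⟩, ⟨⟨a, hle ha⟩, ha, rfl⟩, rfl⟩
    · rintro ⟨_, ⟨a, ha, rfl⟩, rfl⟩
      exact ⟨a, ha, rfl⟩

theorem exists_carter_reducible_aux : ∀ (k : ℕ) {G : Type u} [Group G] [Finite G] [Group.IsSolvable G],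
    Nat.card G = k → ∀ K : Nat.Primes → Subgroup G, Cfsg.IsComplementSystem K →
      ∃ C : Subgroup G, Cfsg.IsCarterSubgroup C ∧ Cfsg.systemNormalizer K ≤ C ∧
        ∀ p : Nat.Primes, ∃ j, (K p).relIndex C = (p : ℕ) ^ j := by
  intro k
  induction k using Nat.strong_induction_on with
  | _ k IH =>
  intro G _ _ _ hk K hK
  subst hk
  rcases subsingleton_or_nontrivial G with hs | hnt
  · refine ⟨⊥, ⟨inferInstance, Subsingleton.elim _ _⟩, le_of_eq (Subsingleton.elim _ _), fun p => ⟨0, ?_⟩⟩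
    rw [pow_zero, Subgroup.relIndex_eq_one]; exact bot_le
  obtain ⟨N, hN⟩ := exists_isMinNormal (G := G)
  haveI := hN.1
  obtain ⟨p₀, hp₀, -, hNp, -⟩ := hN.elementaryAbelian
  haveI := Fact.mk hp₀
  set P₀ : Nat.Primes := ⟨p₀, hp₀⟩
  set f := QuotientGroup.mk' N
  have hq : Nat.card (G ⧸ N) < Nat.card G := by
    rw [N.card_eq_card_quotient_mul_card_subgroup]
    exact lt_mul_of_one_lt_right Nat.card_pos (N.one_lt_card_iff_ne_bot.mpr hN.2.1)
  obtain ⟨Eb, hEb, hDEb, hEK⟩ := IH _ hq (G := G ⧸ N) rfl _ (map_isComplementSystem hK N)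
  set E := Eb.comap f with hE
  have hfs : Function.Surjective f := QuotientGroup.mk'_surjective N
  have hmapE : E.map f = Eb := Subgroup.map_comap_eq_self_of_surjective hfs Eb
  have hNE : N ≤ E := fun x hx => by
    rw [hE, Subgroup.mem_comap, show f x = 1 from (QuotientGroup.eq_one_iff x).mpr hx]
    exact Eb.one_mem
  have hEK' : ∀ p : Nat.Primes, ∃ j, (K p ⊔ N).relIndex E = (p : ℕ) ^ j := fun p => by
    obtain ⟨j, hj⟩ := hEK p
    refine ⟨j, ?_⟩
    rw [← hj, ← hmapE, ← Subgroup.relIndex_comap, Subgroup.comap_map_eq, QuotientGroup.ker_mk']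
  have hNK : ∀ p : Nat.Primes, (p : ℕ) ≠ p₀ → N ≤ K p := by
    intro p hp
    have h := IsPiHall.eq_of_le (isPiHall_complement hK p) (le_sup_left : K p ≤ K p ⊔ N)
      fun r hr hd => ?_
    · exact h ▸ le_sup_right
    · have hc := card_sup_mul_card_inf N (K p)
      obtain ⟨i, hi⟩ := hNp.exists_card_eq
      have hd' : r ∣ p₀ ^ i * Nat.card (K p) := by
        rw [← hi, ← hc, sup_comm]; exact hd.mul_right _
      rcases hr.dvd_mul.mp hd' with h | h
      · rw [(Nat.prime_dvd_prime_iff_eq hr hp₀).mp (hr.dvd_of_dvd_pow h)]; exact Ne.symm hp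
      · exact (isPiHall_complement hK p).1 r hr h
  -- Hall p₀'-subgroup of E
  set Q := (K P₀).subgroupOf E with hQdef
  have hQc : ¬ p₀ ∣ Nat.card Q := fun h => not_dvd_card_complement hK P₀ (h.trans (by
    rw [← Subgroup.card_map_of_injective E.subtype_injective]
    exact Subgroup.card_dvd_of_le (by rw [hQdef, Subgroup.subgroupOf_map_subtype]; exact inf_le_left)))
  have hQ : Cfsg.IsPiHall {r | r ≠ p₀} Q := by
    refine ⟨fun q _ hd hqp => hQc (hqp ▸ hd), fun q hq hqp hd => ?_⟩
    obtain ⟨j, hj⟩ := hEK' P₀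
    have hR : (K P₀ ⊔ N) ⊓ E = (K P₀ ⊓ E) ⊔ N := by
      refine le_antisymm (fun x hx => ?_) (sup_le (inf_le_inf_right _ le_sup_left) (le_inf le_sup_right hNE))
      obtain ⟨a, ha, b, hb, rfl⟩ := exists_mul_of_mem_sup (A := N) (H := K P₀)
        (fun g _ => by rw [Subgroup.normalizer_eq_top_iff.mpr hN.1]; trivial)
        (show x ∈ N ⊔ K P₀ by rw [sup_comm]; exact hx.1)
      rw [sup_comm (K P₀ ⊓ E)]
      exact Subgroup.mul_mem_sup ha ⟨hb, by
        have := E.mul_mem (E.inv_mem (hNE ha)) hx.2; simpa using this⟩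
    have hrel := Subgroup.relIndex_mul_relIndex _ _ _
      (hR ▸ le_sup_left : K P₀ ⊓ E ≤ (K P₀ ⊔ N) ⊓ E) (inf_le_right : (K P₀ ⊔ N) ⊓ E ≤ E)
    rw [Subgroup.inf_relIndex_right, Subgroup.inf_relIndex_right, hj] at hrel
    have hd2 : q ∣ (K P₀ ⊓ E).relIndex ((K P₀ ⊔ N) ⊓ E) * p₀ ^ j := by
      rw [hrel]; exact hd
    obtain ⟨i, hi⟩ := hNp.exists_card_eq
    have hN' : (K P₀ ⊓ E).relIndex ((K P₀ ⊔ N) ⊓ E) ∣ p₀ ^ i := by
      have hc := card_sup_mul_card_inf N (K P₀ ⊓ E)
      have hl := Subgroup.relIndex_mul_relIndex ⊥ _ _ bot_le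
        (hR ▸ le_sup_left : K P₀ ⊓ E ≤ (K P₀ ⊔ N) ⊓ E)
      rw [Subgroup.relIndex_bot_left, Subgroup.relIndex_bot_left] at hl
      rw [sup_comm N, ← hR, ← hl, hi, mul_comm (p₀ ^ i), mul_assoc] at hc
      exact ⟨_, (Nat.eq_of_mul_eq_mul_left Nat.card_pos hc).symm⟩
    rcases hq.dvd_mul.mp hd2 with h | h
    · exact hqp ((Nat.prime_dvd_prime_iff_eq hq hp₀).mp (hq.dvd_of_dvd_pow (h.trans hN')))
    · exact hqp ((Nat.prime_dvd_prime_iff_eq hq hp₀).mp (hq.dvd_of_dvd_pow h))
  have hEN : Group.IsNilpotent (E ⧸ N.subgroupOf E) := by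
    haveI := hEb.1
    refine isNilpotent_of_injective (QuotientGroup.lift (N.subgroupOf E) ((f.comp E.subtype).codRestrict Eb fun x => x.2)
      fun x hx => ?_) ?_
    · exact Subtype.ext ((QuotientGroup.eq_one_iff _).mpr hx)
    · rw [← MonoidHom.ker_eq_bot_iff, eq_bot_iff]
      intro y hy
      obtain ⟨y, rfl⟩ := QuotientGroup.mk'_surjective _ y
      have : f (y : G) = 1 := congrArg Subtype.val (MonoidHom.mem_ker.mp hy)
      rw [Subgroup.mem_bot]
      exact (QuotientGroup.eq_one_iff _).mpr (Subgroup.mem_subgroupOf.mpr ((QuotientGroup.eq_one_iff (y : G)).mp this))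
  obtain ⟨hC₁, hC₁N⟩ := carter_normalizer_hall (G := E) (N.subgroupOf E)
    (hNp.of_equiv (Subgroup.subgroupOfEquivOfLe hNE).symm) hEN hQ
  set C₁ := Subgroup.normalizer (Q : Set E)
  set C := C₁.map E.subtype with hCdef
  have hCE : C ≤ E := Subgroup.map_subtype_le _
  have hCN : C ⊔ N = E := by
    have := congrArg (Subgroup.map E.subtype) hC₁N
    rw [Subgroup.map_sup, Subgroup.map_subgroupOf_eq_of_le hNE, ← MonoidHom.range_eq_map,
      Subgroup.range_subtype, sup_comm] at this
    exact this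
  have hQC : K P₀ ⊓ E ≤ C := by
    intro x hx
    exact ⟨⟨x, hx.2⟩, Subgroup.le_normalizer (show (⟨x, hx.2⟩ : E) ∈ Q from hx.1), rfl⟩
  refine ⟨C, ⟨?_, le_antisymm (fun g hg => ?_) Subgroup.le_normalizer⟩, ?_, fun p => ?_⟩
  · haveI := hC₁.1
    exact Group.nilpotent_of_mulEquiv (C₁.equivMapOfInjective E.subtype E.subtype_injective)
  · have hgE : g ∈ E := by
      have h1 : g ∈ Subgroup.normalizer (E : Set G) := by
        refine mem_normalizer_of_conj_smul_eq ?_
        rw [← hCN, Subgroup.smul_sup, conj_smul_eq_of_mem_normalizer hg,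
          Subgroup.Normal.conj_smul_eq_self]
      rw [hE, ← Subgroup.comap_normalizer_eq_of_surjective _ hfs, hEb.2] at h1
      exact h1
    have h2 : (⟨g, hgE⟩ : E) ∈ Subgroup.normalizer (C₁ : Set E) := by
      have hCC : C₁ = C.subgroupOf E :=
        (Subgroup.comap_map_eq_self_of_injective E.subtype_injective C₁).symm
      rw [hCC, ← Subgroup.subgroupOf_normalizer_eq hCE]
      exact hg
    rw [hC₁.2] at h2
    exact ⟨⟨g, hgE⟩, h2, rfl⟩
  · intro d hd
    have hdE : d ∈ E := by
      rw [hE, Subgroup.mem_comap]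
      apply hDEb
      rw [systemNormalizer_map hK N]
      exact ⟨d, hd, rfl⟩
    refine ⟨⟨d, hdE⟩, ?_, rfl⟩
    have hdK : d ∈ Subgroup.normalizer (K P₀ : Set G) := Subgroup.mem_iInf.mp hd P₀
    rw [Subgroup.mem_normalizer_iff] at hdK
    exact Subgroup.mem_normalizer_iff.mpr fun x => by
      simp only [hQdef, Subgroup.mem_subgroupOf]
      exact hdK (x : G)
  · rcases eq_or_ne (p : ℕ) p₀ with hpp | hpp
    · obtain rfl : p = P₀ := Subtype.ext hpp
      obtain ⟨i, hi⟩ := exists_prime_pow_of_isPiHall hQ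
      have hrel := Subgroup.relIndex_mul_relIndex (K P₀ ⊓ E) C E hQC hCE
      rw [Subgroup.inf_relIndex_right] at hrel
      have h1 : (K P₀ ⊓ E).relIndex C ∣ p₀ ^ i := by
        rw [← hi]; exact ⟨_, hrel.symm⟩
      have h2 : (K P₀).relIndex C = (K P₀ ⊓ E).relIndex C := by
        rw [← Subgroup.inf_relIndex_right (K P₀) C, ← Subgroup.inf_relIndex_right (K P₀ ⊓ E) C,
          inf_assoc, inf_eq_right.mpr hCE]
      obtain ⟨j, -, hj⟩ := (Nat.dvd_prime_pow hp₀).mp h1
      exact ⟨j, h2.trans hj⟩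
    · obtain ⟨j, hj⟩ := hEK p
      refine ⟨j, ?_⟩
      have hmC : C.map f = Eb := by
        rw [← hmapE, ← hCN, Subgroup.map_sup, show N.map f = ⊥ from by
          rw [Subgroup.map_eq_bot_iff, QuotientGroup.ker_mk'], sup_bot_eq]
      rw [← hj, ← hmC]
      refine Eq.trans ?_ (Subgroup.relIndex_comap _ f C)
      rw [Subgroup.comap_map_eq, QuotientGroup.ker_mk', sup_eq_left.mpr (hNK p hpp)]

theorem exists_carter_reducible {G : Type*} [Group G] [Finite G] [Group.IsSolvable G]
    {K : Nat.Primes → Subgroup G} (hK : Cfsg.IsComplementSystem K) :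
    ∃ C : Subgroup G, Cfsg.IsCarterSubgroup C ∧ Cfsg.systemNormalizer K ≤ C ∧
      ∀ p : Nat.Primes, ∃ j, (K p).relIndex C = (p : ℕ) ^ j :=
  exists_carter_reducible_aux _ rfl K hK

/-- Every Carter subgroup contains a system normalizer. -/
theorem exists_systemNormalizer_le {G : Type*} [Group G] [Finite G] [Group.IsSolvable G]
    {C : Subgroup G} (hC : Cfsg.IsCarterSubgroup C) :
    ∃ K : Nat.Primes → Subgroup G, Cfsg.IsComplementSystem K ∧ Cfsg.systemNormalizer K ≤ C := by
  obtain ⟨K, hK⟩ := exists_complementSystem (G := G)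
  obtain ⟨C₀, hC₀, hle, -⟩ := exists_carter_reducible hK
  obtain ⟨g, rfl⟩ := carter_conj hC₀ hC
  refine ⟨_, conj_smul_complementSystem hK g, fun x hx => ?_⟩
  have hmem : g⁻¹ * x * g ∈ Cfsg.systemNormalizer K := by
    rw [Cfsg.systemNormalizer, Subgroup.mem_iInf]
    intro p
    have hxp := conj_smul_eq_of_mem_normalizer (Subgroup.mem_iInf.mp hx p)
    refine mem_normalizer_of_conj_smul_eq ?_
    rw [map_mul, map_mul, mul_smul, mul_smul, hxp, ← mul_smul, ← map_mul, inv_mul_cancel, map_one,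
      one_smul]
  exact ⟨_, hle hmem, by change g * (g⁻¹ * x * g) * g⁻¹ = x; simp [mul_assoc]⟩

set_option maxHeartbeats 2000000 in
/-- With nilpotent length at most two, Carter subgroups are the system normalizers. -/
theorem carter_iff_systemNormalizer {G : Type*} [Group G] [Finite G] (F : Subgroup G) [F.Normal]
    (hF : Group.IsNilpotent F) (hGF : Group.IsNilpotent (G ⧸ F)) (C : Subgroup G) :
    Cfsg.IsCarterSubgroup C ↔
      ∃ K : Nat.Primes → Subgroup G, Cfsg.IsComplementSystem K ∧ C = Cfsg.systemNormalizer K := by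
  haveI := hF
  haveI := hGF
  haveI : Group.IsSolvable G :=
    Group.isSolvable_of_ker_le_range F.subtype (QuotientGroup.mk' F)
      (by rw [QuotientGroup.ker_mk', Subgroup.range_subtype])
  have main : ∀ (K : Nat.Primes → Subgroup G), Cfsg.IsComplementSystem K → ∀ C₀ : Subgroup G,
      Cfsg.IsCarterSubgroup C₀ → Cfsg.systemNormalizer K ≤ C₀ →
      (∀ p : Nat.Primes, ∃ j, (K p).relIndex C₀ = (p : ℕ) ^ j) → Cfsg.systemNormalizer K = C₀ := by
    intro K hK C₀ hC₀ hle hred
    refine le_antisymm hle (le_iInf fun p => ?_)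
    haveI := Fact.mk p.2
    haveI := hC₀.1
    obtain ⟨j, hj⟩ := hred p
    have hnd := not_dvd_card_complement hK p
    have hHall : Cfsg.IsPiHall {r : ℕ | r ≠ (p : ℕ)} ((K p).subgroupOf C₀) := by
      refine ⟨fun r hr hd hrp => hnd ?_, fun r hr hrp hd => ?_⟩
      · refine (hrp ▸ hd).trans ?_
        rw [← Subgroup.card_map_of_injective C₀.subtype_injective, Subgroup.subgroupOf_map_subtype]
        exact Subgroup.card_dvd_of_le inf_le_left
      · change r ∣ (K p).relIndex C₀ at hd
        rw [hj] at hd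
        exact hrp ((Nat.prime_dvd_prime_iff_eq hr p.2).mp (hr.dvd_of_dvd_pow hd))
    have hCK : C₀ ≤ Subgroup.normalizer ((C₀ ⊓ K p : Subgroup G) : Set G) := by
      rw [← Subgroup.normal_subgroupOf_iff_le_normalizer inf_le_left, Subgroup.inf_subgroupOf_left]
      exact normal_of_isPiHall hHall
    -- the p'-part of F
    obtain ⟨R₀, hR₀⟩ := exists_isPiHall (G := F) {r : ℕ | r ≠ (p : ℕ)}
    haveI := normal_of_isPiHall hR₀
    haveI : R₀.Characteristic := Subgroup.characteristic_iff_map_le.mpr fun φ =>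
      le_of_coprime_index (by
        rw [Subgroup.card_map_of_injective φ.injective]; exact IsPiHall.coprime hR₀)
    set R := R₀.map F.subtype with hR
    haveI : R.Normal := hR ▸ inferInstance
    set M := R ⊔ (C₀ ⊓ K p) with hM
    have hRK : R ≤ K p := by
      have h := IsPiHall.eq_of_le (isPiHall_complement hK p) (le_sup_left : K p ≤ K p ⊔ R)
        fun r hr hd => ?_
      · exact h ▸ le_sup_right
      · have hd' : r ∣ Nat.card R * Nat.card (K p) := by
          rw [← card_sup_mul_card_inf R (K p), sup_comm]; exact hd.mul_right _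
        rcases hr.dvd_mul.mp hd' with h | h
        · rw [hR, Subgroup.card_map_of_injective F.subtype_injective] at h
          exact hR₀.1 r hr h
        · exact (isPiHall_complement hK p).1 r hr h
    have hMK : M ≤ K p := sup_le hRK inf_le_right
    have hC₀F : C₀ ⊔ F = ⊤ := by
      have h := eq_top_of_normalizer_eq_self (isCarter_map hC₀ F).2
      have := congrArg (Subgroup.comap (QuotientGroup.mk' F)) h
      rwa [Subgroup.comap_map_eq, QuotientGroup.ker_mk', Subgroup.comap_top] at this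
    have hMHall : Cfsg.IsPiHall {r : ℕ | r ≠ (p : ℕ)} M := by
      refine ⟨fun r hr hd => (isPiHall_complement hK p).1 r hr (hd.trans (Subgroup.card_dvd_of_le hMK)),
        fun r hr hrp hd => ?_⟩
      rw [← Subgroup.relIndex_mul_index (le_sup_right : M ≤ F ⊔ M)] at hd
      rcases hr.dvd_mul.mp hd with h | h
      · -- inside F
        apply hR₀.2 r hr hrp
        refine h.trans ?_
        have hidx : (F ⊓ M).relIndex F ∣ R₀.index := by
          have hRle : R ≤ F ⊓ M := le_inf (Subgroup.map_subtype_le _) le_sup_left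
          have := Subgroup.relIndex_mul_relIndex R (F ⊓ M) F hRle inf_le_left
          have e : R.relIndex F = R₀.index := by
            rw [hR, Subgroup.relIndex, Subgroup.subgroupOf,
              Subgroup.comap_map_eq_self_of_injective F.subtype_injective]
          rw [e] at this
          exact Dvd.intro_left _ this
        refine dvd_trans (dvd_of_eq ?_) hidx
        have e1 := Subgroup.relIndex_mul_relIndex ⊥ M (F ⊔ M) bot_le le_sup_right
        have e2 := Subgroup.relIndex_mul_relIndex ⊥ (F ⊓ M) F bot_le inf_le_left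
        rw [Subgroup.relIndex_bot_left, Subgroup.relIndex_bot_left] at e1 e2
        have hc := card_sup_mul_card_inf F M
        rw [← e1, ← e2] at hc
        have hpos : 0 < Nat.card M * Nat.card (F ⊓ M : Subgroup G) := Nat.mul_pos Nat.card_pos Nat.card_pos
        apply Nat.eq_of_mul_eq_mul_left hpos
        calc Nat.card M * Nat.card (F ⊓ M : Subgroup G) * M.relIndex (F ⊔ M)
            = Nat.card M * M.relIndex (F ⊔ M) * Nat.card (F ⊓ M : Subgroup G) := by ring
          _ = Nat.card (F ⊓ M : Subgroup G) * (F ⊓ M).relIndex F * Nat.card M := hc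
          _ = _ := by ring
      · -- modulo F
        apply hHall.2 r hr hrp
        refine h.trans ?_
        have hsurj : Function.Surjective ((QuotientGroup.mk' F).comp C₀.subtype) := by
          intro y
          obtain ⟨g, rfl⟩ := QuotientGroup.mk'_surjective F y
          obtain ⟨a, ha, b, hb, hab⟩ := exists_mul_of_mem_sup (A := F) (H := C₀)
            (fun g _ => by rw [Subgroup.normalizer_eq_top_iff.mpr ‹F.Normal›]; trivial)
            (show g ∈ F ⊔ C₀ by rw [sup_comm, hC₀F]; trivial)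
          refine ⟨⟨b, hb⟩, ?_⟩
          rw [MonoidHom.comp_apply, ← hab, map_mul, show (QuotientGroup.mk' F) a = 1 from
            (QuotientGroup.eq_one_iff a).mpr ha, one_mul]
          rfl
        refine (?_ : (F ⊔ M).index ∣ _).trans (((K p).subgroupOf C₀).index_map_dvd hsurj)
        rw [← Subgroup.map_map, Subgroup.subgroupOf_map_subtype, Subgroup.index_map,
          QuotientGroup.ker_mk', QuotientGroup.range_mk', Subgroup.index_top, mul_one]
        exact Subgroup.index_dvd_of_le (sup_le (by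
          rw [inf_comm]; exact le_sup_right.trans le_sup_right) le_sup_left)
    rw [← IsPiHall.eq_of_le hMHall hMK (isPiHall_complement hK p).1, hM]
    intro g hg
    refine mem_normalizer_of_conj_smul_eq ?_
    rw [Subgroup.smul_sup, conj_smul_eq_of_mem_normalizer (hCK hg), Subgroup.Normal.conj_smul_eq_self]
  constructor
  · intro hC
    obtain ⟨K, hK⟩ := exists_complementSystem (G := G)
    obtain ⟨C₀, hC₀, hle, hred⟩ := exists_carter_reducible hK
    obtain ⟨g, rfl⟩ := carter_conj hC₀ hC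
    refine ⟨_, conj_smul_complementSystem hK g, ?_⟩
    rw [← main K hK C₀ hC₀ hle hred]
    ext x
    simp only [Cfsg.systemNormalizer, Subgroup.mem_smul_pointwise_iff_exists, Subgroup.mem_iInf]
    constructor
    · rintro ⟨y, hy, rfl⟩ p
      refine mem_normalizer_of_conj_smul_eq ?_
      have : MulAut.conj g • y = g * y * g⁻¹ := rfl
      rw [this, map_mul, map_mul, mul_smul, mul_smul, ← mul_smul (MulAut.conj g⁻¹), ← map_mul,
        inv_mul_cancel, map_one, one_smul, conj_smul_eq_of_mem_normalizer (hy p)]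
    · intro hx
      refine ⟨g⁻¹ * x * g, fun p => mem_normalizer_of_conj_smul_eq ?_, by
        change g * (g⁻¹ * x * g) * g⁻¹ = x; simp [mul_assoc]⟩
      rw [map_mul, map_mul, mul_smul, mul_smul, conj_smul_eq_of_mem_normalizer (hx p), ← mul_smul,
        ← map_mul, inv_mul_cancel, map_one, one_smul]
  · rintro ⟨K, hK, rfl⟩
    obtain ⟨C₀, hC₀, hle, hred⟩ := exists_carter_reducible hK
    exact (main K hK C₀ hC₀ hle hred) ▸ hC₀

end CfsgLib.Hall
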