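/-
Subgroups of every order in `G × A` (solvable `G`, abelian `A`).
-/
import Cfsg.Agent.Hall.Basic
import Cfsg.Agent.Hall.Pi
import Cfsg.Prelude.Def_SolvableStructure

set_option autoImplicit false

namespace CfsgLib.Hall

universe u

theorem exists_subgroup_card_comm : ∀ (k : ℕ) {A : Type u} [CommGroup A] [Finite A],
    Nat.card A = k → ∀ d, d ∣ k → ∃ B : Subgroup A, Nat.card B = d := by
  intro k
  induction k using Nat.strong_induction_on with
  | _ k IH =>
  intro A _ _ hk d hd
  rcases eq_or_ne d 1 with rfl | hd1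
  · exact ⟨⊥, Subgroup.card_bot⟩
  obtain ⟨p, hp, c, rfl⟩ := Nat.exists_prime_and_dvd hd1
  haveI := Fact.mk hp
  obtain ⟨x, hx⟩ := exists_prime_orderOf_dvd_card' (G := A) p (hk ▸ (dvd_mul_right p c).trans hd)
  have hxc : Nat.card (Subgroup.zpowers x) = p := by rw [Nat.card_zpowers, hx]
  have hq : Nat.card A = Nat.card (A ⧸ Subgroup.zpowers x) * p :=
    hxc ▸ (Subgroup.zpowers x).card_eq_card_quotient_mul_card_subgroup
  obtain ⟨B, hB⟩ := IH (Nat.card (A ⧸ Subgroup.zpowers x))
    (by rw [← hk, hq]; exact lt_mul_of_one_lt_right Nat.card_pos hp.one_lt) rfl c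
    (Nat.dvd_of_mul_dvd_mul_left hp.pos (by rw [mul_comm p (Nat.card _), ← hq, hk]; exact hd))
  refine ⟨B.comap (QuotientGroup.mk' _), ?_⟩
  rw [card_comap_mk', hB, hxc, mul_comm]

theorem every_order_prod {G A : Type*} [Group G] [CommGroup A] [Finite G] [Finite A]
    [Group.IsSolvable G] (hA : ∀ p : ℕ, p.Prime → p ∣ Nat.card A → p ∣ Nat.card G)
    (hexp : ∀ p : ℕ, p.Prime → p ∣ Nat.card G →
      (Nat.card A).factorization p + 1 = (Nat.card G).factorization p) :
    Cfsg.HasSubgroupOfEveryOrder (G × A) := by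
  intro d hd
  rw [Nat.card_prod] at hd
  have hd0 : d ≠ 0 := fun h => by simp [h, Nat.card_pos.ne'] at hd
  obtain ⟨H, hH⟩ := exists_isPiHall (G := G) {p | (Nat.card G).factorization p ≤ d.factorization p}
  have hHp : ∀ p : ℕ, p.Prime → (Nat.card H).factorization p =
      if (Nat.card G).factorization p ≤ d.factorization p then (Nat.card G).factorization p else 0 := by
    intro p hp
    split_ifs with h
    · have h1 := congrArg (fun n : ℕ => n.factorization p) H.card_mul_index
      simp only [Nat.factorization_mul Nat.card_pos.ne' Subgroup.index_ne_zero_of_finite,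
        Finsupp.add_apply] at h1
      rw [Nat.factorization_eq_zero_of_not_dvd (hH.2 p hp h), add_zero] at h1
      exact h1
    · exact Nat.factorization_eq_zero_of_not_dvd fun hdv => h (hH.1 p hp hdv)
  have hle : ∀ p : ℕ, p.Prime → (Nat.card H).factorization p ≤ d.factorization p ∧
      d.factorization p ≤ (Nat.card H).factorization p + (Nat.card A).factorization p := by
    intro p hp
    have hdp := (Nat.factorization_le_iff_dvd hd0 (Nat.mul_ne_zero Nat.card_pos.ne' Nat.card_pos.ne')).mpr hd p
    rw [Nat.factorization_mul Nat.card_pos.ne' Nat.card_pos.ne', Finsupp.add_apply] at hdp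
    by_cases hpG : p ∣ Nat.card G
    · have := hexp p hp hpG
      rw [hHp p hp]
      split_ifs with h <;> omega
    · have h1 := Nat.factorization_eq_zero_of_not_dvd hpG
      have h2 := Nat.factorization_eq_zero_of_not_dvd fun h => hpG (hA p hp h)
      rw [hHp p hp]
      split_ifs <;> omega
  have hHd : Nat.card H ∣ d := (Nat.factorization_le_iff_dvd Nat.card_pos.ne' hd0).mp fun p => by
    by_cases hp : p.Prime
    · exact (hle p hp).1
    · simp [Nat.factorization_eq_zero_of_not_prime _ hp]
  obtain ⟨c, rfl⟩ := hHd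
  have hc0 : c ≠ 0 := right_ne_zero_of_mul hd0
  have hcA : c ∣ Nat.card A := (Nat.factorization_le_iff_dvd hc0 Nat.card_pos.ne').mp fun p => by
    by_cases hp : p.Prime
    · have h := (hle p hp).2
      rw [Nat.factorization_mul Nat.card_pos.ne' hc0, Finsupp.add_apply] at h
      omega
    · simp [Nat.factorization_eq_zero_of_not_prime _ hp]
  obtain ⟨B, hB⟩ := exists_subgroup_card_comm _ rfl c hcA
  exact ⟨H.prod B, by rw [← hB, Nat.card_congr (H.prodEquiv B).toEquiv, Nat.card_prod]⟩

end CfsgLib.Hall
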