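import Cfsg.Agent.Hall.Fitting
import Cfsg.Agent.Components.Cores
import Cfsg.Agent.Transfer.Blackburn

/-!
# Elements fixing the elements of prime order of an odd Fitting subgroup
-/

set_option autoImplicit false
set_option linter.style.haveILetI false

namespace CfsgLib.Hall

variable {G : Type*} [Group G] [Finite G]

/-- The centralizer of the elements of prime order of an odd Fitting subgroup of a solvable group is nilpotent. -/
theorem centralizer_prime_order_le_fitting [Group.IsSolvable G]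
    (hodd : Odd (Nat.card (Cfsg.fittingSubgroup G))) :
    Subgroup.centralizer {x : G | x ∈ Cfsg.fittingSubgroup G ∧ (orderOf x).Prime} ≤ Cfsg.fittingSubgroup G := by
  classical
  set F := Cfsg.fittingSubgroup G with hF
  haveI hFn : F.Normal := Components.fittingSubgroup_normal
  set C := Subgroup.centralizer {x : G | x ∈ F ∧ (orderOf x).Prime} with hC
  haveI hCn : C.Normal := ⟨fun c hc g => Subgroup.mem_centralizer_iff.2 fun x hx => by
    have hx' : g⁻¹ * x * g ∈ {x : G | x ∈ F ∧ (orderOf x).Prime} := by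
      refine ⟨by simpa using hFn.conj_mem x hx.1 g⁻¹, ?_⟩
      rw [show g⁻¹ * x * g = MulAut.conj g⁻¹ x by simp, MulEquiv.orderOf_eq]
      exact hx.2
    have h := Subgroup.mem_centralizer_iff.1 hc _ hx'
    calc x * (g * c * g⁻¹) = g * (g⁻¹ * x * g * c) * g⁻¹ := by group
      _ = g * (c * (g⁻¹ * x * g)) * g⁻¹ := by rw [h]
      _ = g * c * g⁻¹ * x := by group⟩
  -- elements of order prime to `q` of `C` centralize `O_q(G)`
  have hfix : ∀ y ∈ C, ∀ q : ℕ, q.Prime → (orderOf y).Coprime q → ∀ z ∈ Cfsg.pCore q G, Commute y z := by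
    intro y hy q hq hcop z hz
    haveI := Fact.mk hq
    have hle : Cfsg.pCore q G ≤ F :=
      Components.le_fittingSubgroup (Cfsg.pCore_normal q G)
        (IsPGroup.isNilpotent (CfsgLib.PCore.isPGroup_pCore q G))
    rcases eq_or_ne q 2 with rfl | hq2
    · obtain ⟨k, hk⟩ := IsPGroup.iff_orderOf.1 (CfsgLib.PCore.isPGroup_pCore 2 G) ⟨z, hz⟩
      rw [Subgroup.orderOf_mk] at hk
      rcases Nat.eq_zero_or_pos k with rfl | hk0
      · rw [pow_zero, orderOf_eq_one_iff] at hk
        rw [hk]; exact Commute.one_right y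
      · have h2 : 2 ∣ Nat.card F := (dvd_pow_self 2 hk0.ne').trans (hk ▸ Subgroup.orderOf_dvd_natCard F (hle hz))
        exact absurd (even_iff_two_dvd.2 h2) (Nat.not_even_iff_odd.2 hodd)
    haveI := Cfsg.pCore_normal q G
    refine CfsgLib.Transfer.commute_of_fixes_small (CfsgLib.PCore.isPGroup_pCore q G) hcop
      (by rw [Subgroup.normalizer_eq_top]; trivial) (fun x hx h => ?_) z hz
    rcases h with h | h
    · rcases eq_or_ne x 1 with rfl | hx1
      · exact Commute.one_right y
      · exact (Subgroup.mem_centralizer_iff.1 hy x ⟨hle hx, by rw [orderOf_eq_prime h hx1]; exact hq⟩).symm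
    · exact absurd h.1 hq2
  -- elements of `C` of coprime prime power orders commute
  have hcomm : ∀ {r q : ℕ}, r.Prime → q.Prime → r ≠ q → ∀ x ∈ C, ∀ y ∈ C,
      (∃ a, orderOf x = r ^ a) → (∃ b, orderOf y = q ^ b) → Commute x y := by
    intro r q hr hq hrq x hx y hy ⟨a, ha⟩ ⟨b, hb⟩
    set z := y * x * y⁻¹ * x⁻¹ with hz
    have hzF : z ∈ F := by
      refine centralizer_fitting_le (Subgroup.mem_centralizer_iff.2 fun f hf => ?_)
      have hcl : F ≤ Subgroup.centralizer ({z} : Set G) := by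
        rw [hF, fitting_eq_iSup_primes]
        refine iSup_le fun s => ?_
        intro u hu
        refine Subgroup.mem_centralizer_singleton_iff.2 (Commute.eq ?_).symm
        have hs : (s : ℕ).Prime := s.2
        haveI := Cfsg.pCore_normal (s : ℕ) G
        have hconj : ∀ w : G, w * u * w⁻¹ ∈ Cfsg.pCore (s : ℕ) G := fun w =>
          (Cfsg.pCore_normal (s : ℕ) G).conj_mem u hu w
        rcases eq_or_ne (s : ℕ) r with hsr | hsr
        · have hc : ∀ w ∈ Cfsg.pCore (s : ℕ) G, Commute y w := hfix y hy s hs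
            (by rw [hb, hsr]; exact (Nat.coprime_primes hq hr).2 hrq.symm |>.pow_left b)
          have h1 : x⁻¹ * u * x ∈ Cfsg.pCore (s : ℕ) G := by simpa using hconj x⁻¹
          show z * u = u * z
          calc z * u = y * x * (y⁻¹ * (x⁻¹ * u * x)) * x⁻¹ := by rw [hz]; group
            _ = y * x * ((x⁻¹ * u * x) * y⁻¹) * x⁻¹ := by rw [(hc _ h1).inv_left.eq]
            _ = y * u * x * y⁻¹ * x⁻¹ := by group
            _ = u * y * x * y⁻¹ * x⁻¹ := by rw [(hc u hu).eq]
            _ = u * z := by rw [hz]; group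
        · have hc : ∀ w ∈ Cfsg.pCore (s : ℕ) G, Commute x w := hfix x hx s hs
            (by rw [ha]; exact (Nat.coprime_primes hr hs).2 (Ne.symm hsr) |>.pow_left a)
          have h1 : y⁻¹ * u * y ∈ Cfsg.pCore (s : ℕ) G := by simpa using hconj y⁻¹
          show z * u = u * z
          calc z * u = y * x * y⁻¹ * (x⁻¹ * u) := by rw [hz]; group
            _ = y * x * y⁻¹ * (u * x⁻¹) := by rw [(hc u hu).inv_left.eq]
            _ = y * (x * (y⁻¹ * u * y)) * y⁻¹ * x⁻¹ := by group
            _ = y * ((y⁻¹ * u * y) * x) * y⁻¹ * x⁻¹ := by rw [(hc _ h1).eq]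
            _ = u * z := by rw [hz]; group
      exact (Subgroup.mem_centralizer_singleton_iff.1 (hcl hf))
    -- `z` is an `r`-element
    have key : ∀ (r' : ℕ), r'.Prime → ∀ x' y' : G, x' ∈ C → (∃ a, orderOf x' = r' ^ a) →
        y' * x' * y'⁻¹ * x'⁻¹ ∈ F → ∃ n, orderOf (y' * x' * y'⁻¹ * x'⁻¹) ∣ r' ^ n := by
      intro r' hr' x' y' hx' ⟨a', ha'⟩ hzF'
      set R := Cfsg.pCore r' G with hR
      haveI hRn : R.Normal := Cfsg.pCore_normal r' G
      haveI := Fact.mk hr'
      set w := y' * x' * y'⁻¹ * x'⁻¹ with hw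
      set π := QuotientGroup.mk' R
      have hle : F ≤ (Subgroup.centralizer ({π x'} : Set (G ⧸ R))).comap π := by
        rw [hF, fitting_eq_iSup_primes]
        refine iSup_le fun s u hu => ?_
        rw [Subgroup.mem_comap, Subgroup.mem_centralizer_singleton_iff]
        have hs : (s : ℕ).Prime := s.2
        rcases eq_or_ne (s : ℕ) r' with hsr | hsr
        · have : π u = 1 := (QuotientGroup.eq_one_iff u).2 (show u ∈ Cfsg.pCore r' G from hsr ▸ hu)
          rw [this, one_mul, mul_one]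
        · have h := hfix x' hx' s hs (by rw [ha']; exact (Nat.coprime_primes hr' hs).2 (Ne.symm hsr) |>.pow_left a')
            u hu
          rw [← map_mul, ← map_mul, h.eq]
      have hcw : Commute (π w) (π x') :=
        Subgroup.mem_centralizer_singleton_iff.1 (Subgroup.mem_comap.1 (hle hzF'))
      have hpa : π x' ^ r' ^ a' = 1 := by rw [← map_pow, ← ha', pow_orderOf_eq_one, map_one]
      have hconj : (π w * π x') ^ r' ^ a' = 1 := by
        rw [← map_mul, hw, inv_mul_cancel_right, ← map_pow, conj_pow, ← ha', pow_orderOf_eq_one, mul_one,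
          mul_inv_cancel, map_one]
      rw [hcw.mul_pow, hpa, mul_one, ← map_pow] at hconj
      have hmem : w ^ r' ^ a' ∈ R := (QuotientGroup.eq_one_iff _).1 hconj
      obtain ⟨c, hc⟩ := IsPGroup.iff_orderOf.1 (CfsgLib.PCore.isPGroup_pCore r' G) ⟨_, hmem⟩
      rw [Subgroup.orderOf_mk] at hc
      refine ⟨a' + c, orderOf_dvd_of_pow_eq_one ?_⟩
      rw [pow_add, pow_mul, ← hc, pow_orderOf_eq_one]
    have hz' : x * y * x⁻¹ * y⁻¹ = z⁻¹ := by rw [hz]; group
    obtain ⟨n, hn⟩ := key r hr x y hx ⟨a, ha⟩ hzF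
    obtain ⟨m, hm⟩ := key q hq y x hy ⟨b, hb⟩ (by rw [hz']; exact F.inv_mem hzF)
    rw [hz', orderOf_inv] at hm
    have h1 : orderOf z = 1 :=
      Nat.eq_one_of_dvd_coprimes (((Nat.coprime_primes hr hq).2 hrq).pow n m) hn hm
    rw [orderOf_eq_one_iff, hz, mul_inv_eq_one, mul_inv_eq_iff_eq_mul] at h1
    exact h1.symm
  -- the Sylow subgroups of `C` are normal
  refine Components.le_fittingSubgroup hCn (Group.isNilpotent_of_finite_tfae.out 3 0 |>.1 ?_)
  intro q hq P
  haveI := hq
  rw [← Subgroup.normalizer_eq_top_iff]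
  refine Subgroup.eq_top_of_card_eq _ (Nat.dvd_antisymm (Subgroup.card_subgroup_dvd_card _) ?_)
  rw [← Nat.factorization_prime_le_iff_dvd Nat.card_pos.ne' Nat.card_pos.ne']
  intro s hs
  haveI := Fact.mk hs
  obtain ⟨S⟩ : Nonempty (Sylow s C) := inferInstance
  have hle : ∃ S' : Sylow s C, (S' : Subgroup C) ≤ Subgroup.normalizer ((P : Subgroup C) : Set C) := by
    rcases eq_or_ne s q with rfl | hsq
    · exact ⟨P, Subgroup.le_normalizer⟩
    refine ⟨S, fun u hu => ?_⟩
    have hc : ∀ v ∈ (P : Subgroup C), u * v = v * u := fun v hv => by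
      obtain ⟨a, ha⟩ := IsPGroup.iff_orderOf.1 S.isPGroup' ⟨u, hu⟩
      obtain ⟨b, hb⟩ := IsPGroup.iff_orderOf.1 P.isPGroup' ⟨v, hv⟩
      rw [Subgroup.orderOf_mk] at ha hb
      exact Subtype.ext (hcomm hs hq.out hsq _ u.2 _ v.2 ⟨a, by rw [Subgroup.orderOf_coe, ha]⟩
        ⟨b, by rw [Subgroup.orderOf_coe, hb]⟩).eq
    refine Subgroup.mem_normalizer_iff.2 fun v => ⟨fun hv => ?_, fun hv => ?_⟩
    · rw [hc v hv, mul_inv_cancel_right]; exact hv
    · have h := hc _ hv
      have e : v = u⁻¹ * (u * v * u⁻¹) * u := by group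
      rw [e, mul_assoc, ← h, inv_mul_cancel_left]; exact hv
  obtain ⟨S', hS'⟩ := hle
  have h := Subgroup.card_dvd_of_le hS'
  rw [S'.card_eq_multiplicity] at h
  exact (hs.pow_dvd_iff_le_factorization Nat.card_pos.ne').1 h

end CfsgLib.Hall
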