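/-
Quotients of Frobenius groups.
-/
import Cfsg.Agent.Frob.Kernel

set_option autoImplicit false
set_option linter.style.haveILetI false

namespace CfsgLib.Hall.FrobQuot

open scoped commutatorElement

open CfsgLib

variable {G : Type*} [Group G] [Finite G]

theorem bijective_commutator {R : Subgroup G} (hR : Cfsg.IsFrobeniusComplement R) {h : G} (hh : h ∈ R) (h1 : h ≠ 1)
    (M : Subgroup G) [M.Normal] (hM : M ≤ Frob.kernel hR) :
    ∀ m ∈ M, ∃ k ∈ M, ⁅h, k⁆ = m := by
  have hmem : ∀ k ∈ M, ⁅h, k⁆ ∈ M := fun k hk => by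
    rw [commutatorElement_def]
    exact M.mul_mem (Subgroup.Normal.conj_mem inferInstance k hk h) (M.inv_mem hk)
  let f : M → M := fun k => ⟨⁅h, (k : G)⁆, hmem k k.2⟩
  have hinj : Function.Injective f := by
    intro a b hab
    have he : ⁅h, (a : G)⁆ = ⁅h, (b : G)⁆ := congrArg Subtype.val hab
    simp only [commutatorElement_def, mul_assoc] at he
    have he' := mul_left_cancel he
    have hc : (b : G)⁻¹ * a ∈ Frob.kernel hR ⊓ Subgroup.centralizer ({h} : Set G) := by
      refine ⟨hM (M.mul_mem (M.inv_mem b.2) a.2), Subgroup.mem_centralizer_singleton_iff.mpr ?_⟩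
      calc (b : G)⁻¹ * a * h = (b : G)⁻¹ * ((a : G) * (h⁻¹ * (a : G)⁻¹))⁻¹ * a := by group
        _ = (b : G)⁻¹ * ((b : G) * (h⁻¹ * (b : G)⁻¹))⁻¹ * a := by rw [he']
        _ = h * ((b : G)⁻¹ * a) := by group
    rw [Frob.kernel_inf_centralizer hR hh h1, Subgroup.mem_bot, inv_mul_eq_one] at hc
    exact Subtype.ext hc.symm
  intro m hm
  obtain ⟨k, hk⟩ := (Finite.injective_iff_surjective.mp hinj) ⟨m, hm⟩
  exact ⟨k, k.2, congrArg Subtype.val hk⟩

theorem normal_le_kernel {R : Subgroup G} (hR : Cfsg.IsFrobeniusComplement R) (N : Subgroup G) [N.Normal]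
    (hKN : ¬ Frob.kernel hR ≤ N) : N ≤ Frob.kernel hR := by
  intro x hx
  rw [Frob.mem_kernel]
  by_contra hxk
  obtain ⟨hx1, g, hg⟩ := Frob.not_mem_kernel_iff.mp hxk
  haveI := Frob.kernel_normal hR
  apply hKN
  intro m hm
  have hh : g⁻¹ * x * g ∈ N := by simpa using Subgroup.Normal.conj_mem inferInstance x hx g⁻¹
  obtain ⟨k, -, rfl⟩ := bijective_commutator hR hg (fun e => hx1 (by
    calc x = g * (g⁻¹ * x * g) * g⁻¹ := by group
      _ = 1 := by rw [e]; group)) (Frob.kernel hR) le_rfl m hm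
  rw [commutatorElement_def, show g⁻¹ * x * g * k * (g⁻¹ * x * g)⁻¹ * k⁻¹ =
    g⁻¹ * x * g * (k * (g⁻¹ * x * g)⁻¹ * k⁻¹) by group]
  exact N.mul_mem hh (Subgroup.Normal.conj_mem inferInstance _ (N.inv_mem hh) k)

theorem main (R : Subgroup G) (hR : Cfsg.IsFrobeniusComplement R) (N : Subgroup G) [N.Normal]
    (hKN : ¬ Cfsg.frobeniusKernel R ⊆ N) :
    Cfsg.IsFrobeniusComplement (R.map (QuotientGroup.mk' N)) ∧
      Cfsg.frobeniusKernel (R.map (QuotientGroup.mk' N)) = QuotientGroup.mk' N '' Cfsg.frobeniusKernel R := by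
  rw [← Frob.coe_kernel hR] at hKN ⊢
  set K := Frob.kernel hR with hK
  haveI := Frob.kernel_normal hR
  have hNK : N ≤ K := normal_le_kernel hR N fun h => hKN h
  set π := QuotientGroup.mk' N
  have hπ := QuotientGroup.mk'_surjective N
  haveI : (K.map π).Normal := Subgroup.Normal.map inferInstance π hπ
  have hcomp := Frob.isComplement'_kernel hR
  have hinjR : ∀ h ∈ R, π h = 1 → h = 1 := fun h hh e =>
    Frob.kernel_inter ((Frob.mem_kernel hR).mp (hNK ((QuotientGroup.eq_one_iff h).mp e))) hh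
  have hdis : K.map π ⊓ R.map π = ⊥ := by
    rw [Subgroup.eq_bot_iff_forall]
    rintro _ ⟨⟨k, hk, rfl⟩, h, hh, he⟩
    have : h ∈ K := by
      have h2 : k⁻¹ * h ∈ N := QuotientGroup.eq.mp he.symm
      simpa using K.mul_mem hk (hNK h2)
    rw [← he, Frob.kernel_inter ((Frob.mem_kernel hR).mp this) hh, map_one]
  have hsup : K.map π ⊔ R.map π = ⊤ := by
    rw [← Subgroup.map_sup, hcomp.sup_eq_top, Subgroup.map_top_of_surjective π hπ]
  have hfc : Cfsg.IsFrobeniusComplement (R.map π) := by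
    refine Frob.isFrobeniusComplement_of_fpf (K.map π) (R.map π) hdis hsup ?_ ?_ ?_
    · rw [Ne, Subgroup.map_eq_bot_iff, QuotientGroup.ker_mk']
      exact fun h => hKN h
    · obtain ⟨h, hh, h1⟩ := Frob.exists_ne_one hR
      exact fun he => h1 (hinjR h hh (Subgroup.mem_bot.mp (he ▸ Subgroup.mem_map_of_mem π hh)))
    · rintro _ ⟨h, hh, rfl⟩ _ ⟨k, hk, rfl⟩ hc
      by_cases h1 : h = 1
      · exact Or.inl (by rw [h1, map_one])
      right
      have hN : ⁅h, k⁆ ∈ N := (QuotientGroup.eq_one_iff _).mp (by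
        change π ⁅h, k⁆ = 1
        rw [map_commutatorElement, commutatorElement_eq_one_iff_mul_comm]; exact hc)
      obtain ⟨n, hn, hne⟩ := bijective_commutator hR hh h1 N hNK _ hN
      simp only [commutatorElement_def, mul_assoc] at hne
      have he' := mul_left_cancel hne
      have hcen : n⁻¹ * k ∈ K ⊓ Subgroup.centralizer ({h} : Set G) := by
        refine ⟨K.mul_mem (K.inv_mem (hNK hn)) hk, Subgroup.mem_centralizer_singleton_iff.mpr ?_⟩
        calc n⁻¹ * k * h = n⁻¹ * (k * (h⁻¹ * k⁻¹))⁻¹ * k := by group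
          _ = n⁻¹ * (n * (h⁻¹ * n⁻¹))⁻¹ * k := by rw [he']
          _ = h * (n⁻¹ * k) := by group
      rw [hK, Frob.kernel_inf_centralizer hR hh h1, Subgroup.mem_bot, inv_mul_eq_one] at hcen
      exact (QuotientGroup.eq_one_iff k).mpr (hcen ▸ hn)
  refine ⟨hfc, ?_⟩
  rw [← Frob.coe_kernel hfc]
  have hidx : (R.map π).index = Nat.card (K.map π) :=
    (Subgroup.isComplement'_of_disjoint_and_mul_eq_univ (disjoint_iff.mpr hdis)
      (by rw [← Subgroup.normal_mul, hsup]; rfl)).index_eq_card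
  have hle : K.map π ≤ Frob.kernel hfc := fun x hx => by
    rw [Frob.mem_kernel_iff_pow hfc, hidx]
    exact congrArg Subtype.val (pow_card_eq_one' (G := K.map π) (x := ⟨x, hx⟩))
  rw [← Subgroup.eq_of_le_of_card_ge hle (by rw [Frob.card_kernel_subgroup hfc, hidx])]
  rfl

end CfsgLib.Hall.FrobQuot
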