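/-
The reduction for a minimal non-trivial coprime action on a `p`-group.
-/
import Cfsg.Agent.CoprimeAction.Basic
import Cfsg.Agent.PGroup.Basic
import Cfsg.Prelude.Def_Transfer

set_option autoImplicit false
set_option linter.style.haveILetI false

namespace CfsgLib.Hall.HHReduction

open scoped commutatorElement

variable {X : Type*} [Group X]

theorem normalizer_le_map_char (P : Subgroup X) (K : Subgroup P) [hK : K.Characteristic] [Finite X] :
    Subgroup.normalizer (P : Set X) ≤ Subgroup.normalizer ((K.map P.subtype : Subgroup X) : Set X) := by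
  intro b hb
  refine Subgroup.mem_normalizer_fintype ?_
  rintro _ ⟨k, hk, rfl⟩
  let φ : P ≃* P :=
    { toFun := fun x => ⟨b * x * b⁻¹, (Subgroup.mem_normalizer_iff.mp hb x).mp x.2⟩
      invFun := fun x => ⟨b⁻¹ * x * b, (Subgroup.mem_normalizer_iff''.mp hb x).mp x.2⟩
      left_inv := fun x => Subtype.ext (by simp [mul_assoc])
      right_inv := fun x => Subtype.ext (by simp [mul_assoc])
      map_mul' := fun x y => Subtype.ext (by simp [mul_assoc]) }
  exact ⟨φ k, (Subgroup.characteristic_iff_map_le.mp hK φ) ⟨k, hk, rfl⟩, rfl⟩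

theorem main [Finite X] {p : ℕ} [Fact p.Prime] (B A P : Subgroup X) (hP : IsPGroup p P)
    (hBP : B ≤ Subgroup.normalizer (P : Set X)) (hAB : A ≤ B) (hAn : B ≤ Subgroup.normalizer (A : Set X))
    (hAp : (Nat.card A).Coprime p) (hnt : ⁅P, A⁆ ≠ ⊥)
    (hmin : ∀ U : Subgroup X, U < P → B ≤ Subgroup.normalizer (U : Set X) → ⁅U, A⁆ = ⊥) :
    ⁅P, A⁆ = P ∧ (Cfsg.IsElementaryAbelian p P ∨ Cfsg.IsSpecial p ↥P) ∧
      (∀ U : Subgroup X, (frattini ↥P).map P.subtype ≤ U → U ≤ P → B ≤ Subgroup.normalizer (U : Set X) →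
        U = (frattini ↥P).map P.subtype ∨ U = P) ∧ (p ≠ 2 → ∀ x ∈ P, x ^ p = 1) := by
  classical
  have hp : p.Prime := Fact.out
  haveI : Group.IsNilpotent P := hP.isNilpotent
  have hAP : A ≤ Subgroup.normalizer (P : Set X) := hAB.trans hBP
  obtain ⟨n, hn⟩ := hP.exists_card_eq
  have hcop : (Nat.card A).Coprime (Nat.card P) := by rw [hn]; exact hAp.pow_right n
  have hPA : ⁅P, A⁆ = P := by
    by_contra hne
    have hlt := lt_of_le_of_ne (CoprimeAction.commutator_le_of_normalizer hAP) hne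
    have hB : B ≤ Subgroup.normalizer ((⁅P, A⁆ : Subgroup X) : Set X) := fun b hb => by
      rw [Subgroup.mem_normalizer_iff_map_conj_eq, Subgroup.map_commutator,
        Subgroup.mem_normalizer_iff_map_conj_eq.1 (hBP hb), Subgroup.mem_normalizer_iff_map_conj_eq.1 (hAn hb)]
    exact hnt ((CoprimeAction.commutator_commutator_eq hAP hcop (Or.inr inferInstance)).symm.trans (hmin _ hlt hB))
  let act : X → P → P := fun a x =>
    if h : a ∈ A then ⟨a * x * a⁻¹, (Subgroup.mem_normalizer_iff.mp (hAP h) x).mp x.2⟩ else x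
  haveI : Fintype A := Fintype.ofFinite A
  have hact : ∀ (a : A) (x : P), ((act a x : P) : X) = (a : X) * x * (a : X)⁻¹ := fun a x => by simp [act]
  -- the fixed points lie in the derived subgroup
  let F : P →* Abelianization P := MonoidHom.mk' (fun x => ∏ a : A, Abelianization.of (act a x)) fun x y => by
    rw [← Finset.prod_mul_distrib]
    refine Finset.prod_congr rfl fun a _ => ?_
    rw [← map_mul]
    exact congrArg _ (Subtype.ext (by simp [hact, mul_assoc]))
  have hFker : ⁅P, A⁆ ≤ F.ker.map P.subtype := by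
    refine Subgroup.commutator_le.mpr fun x hx a ha => ?_
    have hxa : a * x⁻¹ * a⁻¹ ∈ P := (Subgroup.mem_normalizer_iff.mp (hAP ha) _).mp (P.inv_mem hx)
    refine ⟨⟨x, hx⟩ * ⟨a * x⁻¹ * a⁻¹, hxa⟩, MonoidHom.mem_ker.mpr ?_, ?_⟩
    · have h1 : F ⟨a * x⁻¹ * a⁻¹, hxa⟩ = F (⟨x, hx⟩⁻¹) := by
        show ∏ c : A, Abelianization.of (act c ⟨a * x⁻¹ * a⁻¹, hxa⟩) = ∏ c : A, Abelianization.of (act c (⟨x, hx⟩⁻¹))
        refine Fintype.prod_equiv (Equiv.mulRight ⟨a, ha⟩) _ _ fun c => congrArg _ (Subtype.ext ?_)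
        simp [act, A.mul_mem c.2 ha, mul_assoc]
      rw [map_mul, h1, ← map_mul, mul_inv_cancel, map_one]
    · simp [commutatorElement_def, mul_assoc]
  have hfix : ∀ x : P, (∀ a ∈ A, a * (x : X) = (x : X) * a) → x ∈ commutator P := by
    intro x hx
    obtain ⟨y, hy, hyx⟩ := hFker (hPA.symm.le x.2)
    obtain rfl : y = x := Subtype.ext hyx
    have hy' : ∏ a : A, Abelianization.of (act a y) = 1 := MonoidHom.mem_ker.mp hy
    have he : ∀ a : A, act a y = y := fun a => Subtype.ext (by rw [hact, hx a a.2, mul_inv_cancel_right])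
    simp only [he, Finset.prod_const, Finset.card_univ, ← Nat.card_eq_fintype_card] at hy'
    rw [← Abelianization.ker_of, MonoidHom.mem_ker]
    have hd1 := orderOf_dvd_of_pow_eq_one hy'
    have hd2 : orderOf (Abelianization.of y) ∣ Nat.card P :=
      (orderOf_map_dvd _ y).trans (orderOf_dvd_natCard y)
    exact orderOf_eq_one_iff.mp (Nat.eq_one_of_dvd_coprimes hcop hd1 hd2)
  have hPne : P ≠ ⊥ := fun h => hnt (by rw [h]; exact Subgroup.commutator_bot_left A)
  haveI : Nontrivial P := (Subgroup.nontrivial_iff_ne_bot P).mpr hPne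
  have hcentral : ∀ K : Subgroup P, K.Characteristic → K ≠ ⊤ → ∀ k ∈ K, ∀ a ∈ A, a * (k : X) = (k : X) * a := by
    intro K hK hne k hk a ha
    have hlt : K.map P.subtype < P := lt_of_le_of_ne (Subgroup.map_subtype_le K) fun h =>
      hne (Subgroup.map_injective P.subtype_injective (h.trans (by rw [← MonoidHom.range_eq_map, Subgroup.range_subtype])))
    have := Subgroup.commutator_eq_bot_iff_le_centralizer.mp
      (hmin _ hlt (hBP.trans (normalizer_le_map_char P K))) ⟨k, hk, rfl⟩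
    exact Subgroup.mem_centralizer_iff.mp this a ha
  have hΦne : frattini P ≠ ⊤ := by
    obtain ⟨M, hM, -⟩ := (eq_top_or_exists_le_coatom (⊥ : Subgroup P)).resolve_left bot_ne_top
    exact fun h => hM.1 (top_le_iff.mp (h ▸ frattini_le_coatom hM))
  have hΦA : ∀ k ∈ frattini P, ∀ a ∈ A, a * (k : X) = (k : X) * a := hcentral _ inferInstance hΦne
  have hΦd : frattini P ≤ commutator P := fun k hk => hfix k (hΦA k hk)
  have hdΦ := CfsgLib.PGroup.commutator_le_frattini hP
  have heq : frattini P = commutator P := le_antisymm hΦd hdΦ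
  -- the derived subgroup is central
  have hΦZ : frattini P ≤ Subgroup.center P := by
    intro k hk
    refine Subgroup.mem_center_iff.mpr fun g => ?_
    let C : Subgroup X := (Subgroup.centralizer ((frattini P).map P.subtype : Set X))
    have hle : P ≤ C := by
      rw [← hPA]
      refine Subgroup.commutator_le.mpr fun x hx a ha => ?_
      refine Subgroup.mem_centralizer_iff.mpr ?_
      rintro _ ⟨w, hw, rfl⟩
      have hw' : x⁻¹ * (w : X) * x ∈ (frattini P).map P.subtype :=
        ⟨⟨x, hx⟩⁻¹ * w * ⟨x, hx⟩, by simpa using (inferInstance : (frattini P).Normal).conj_mem w hw (⟨x, hx⟩⁻¹), rfl⟩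
      obtain ⟨w', hw'm, hw'e⟩ := hw'
      have c1 := hΦA w' hw'm a ha
      have c2 := hΦA w hw a ha
      rw [show ((w' : P) : X) = x⁻¹ * (w : X) * x from hw'e] at c1
      show (w : X) * ⁅x, a⁆ = ⁅x, a⁆ * (w : X)
      rw [commutatorElement_def]
      calc (w : X) * (x * a * x⁻¹ * a⁻¹) = x * ((x⁻¹ * w * x) * a) * x⁻¹ * a⁻¹ := by group
        _ = x * (a * (x⁻¹ * w * x)) * x⁻¹ * a⁻¹ := by rw [c1]
        _ = x * a * x⁻¹ * (w * a⁻¹) := by group
        _ = x * a * x⁻¹ * (a⁻¹ * w) := by rw [(Commute.inv_left (show Commute a (w : X) from c2)).eq]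
        _ = (x * a * x⁻¹ * a⁻¹) * w := by group
    exact Subtype.ext (Subgroup.mem_centralizer_iff.mp (hle g.2) k ⟨k, hk, rfl⟩).symm
  refine ⟨hPA, ?_, ?_, ?_⟩
  · by_cases hab : Subgroup.center P = ⊤
    · left
      have hd : commutator P = ⊥ := by
        rw [eq_bot_iff, commutator_eq_closure, Subgroup.closure_le]
        rintro _ ⟨a, b, rfl⟩
        exact commutatorElement_eq_one_iff_mul_comm.mpr (Subgroup.mem_center_iff.mp (hab ▸ Subgroup.mem_top b) a)
      refine ⟨⟨⟨fun a b => Subgroup.mem_center_iff.mp (hab ▸ Subgroup.mem_top b) a⟩⟩, fun a ha => ?_⟩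
      have := hΦd (CfsgLib.PGroup.pow_mem_frattini hP ⟨a, ha⟩)
      rw [hd, Subgroup.mem_bot] at this
      exact congrArg Subtype.val this
    · right
      have hZ : Subgroup.center P = commutator P :=
        le_antisymm (fun k hk => hfix k (hcentral _ inferInstance hab k hk)) (heq ▸ hΦZ)
      exact ⟨hP, heq.trans hZ.symm, hZ.symm⟩
  · intro U hΦU hUP hBU
    by_cases hU : U = P
    · exact Or.inr hU
    refine Or.inl (le_antisymm (fun u hu => ?_) hΦU)
    have hc := Subgroup.commutator_eq_bot_iff_le_centralizer.mp (hmin U (lt_of_le_of_ne hUP hU) hBU) hu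
    exact ⟨⟨u, hUP hu⟩, hdΦ (hfix _ fun a ha => Subgroup.mem_centralizer_iff.mp hc a ha), rfl⟩
  · intro hp2 x hx
    have h2 : ∀ a b : P, ⁅a, b⁆ ∈ Subgroup.center P :=
      CfsgLib.PGroup.class_two_of_commutator_le_center (heq ▸ hΦZ)
    have hexp : ∀ a b : P, ⁅a, b⁆ ^ p = 1 := fun a b => by
      rw [← CfsgLib.PGroup.commutator_pow_left h2]
      exact commutatorElement_eq_one_iff_mul_comm.mpr
        (Subgroup.mem_center_iff.mp (hΦZ (CfsgLib.PGroup.pow_mem_frattini hP a)) b).symm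
    let ψ : P →* P := MonoidHom.mk' (fun y => y ^ p) fun y z => by
      obtain ⟨j, hj⟩ := CfsgLib.PGroup.dvd_choose_two hp2
      rw [CfsgLib.PGroup.mul_pow_central (h2 z y), hj, pow_mul, hexp, one_pow, mul_one]
    have hker : ⁅P, A⁆ ≤ ψ.ker.map P.subtype := by
      refine Subgroup.commutator_le.mpr fun y hy a ha => ?_
      have hya : a * y⁻¹ * a⁻¹ ∈ P := (Subgroup.mem_normalizer_iff.mp (hAP ha) _).mp (P.inv_mem hy)
      refine ⟨⟨y, hy⟩ * ⟨a * y⁻¹ * a⁻¹, hya⟩, MonoidHom.mem_ker.mpr ?_, ?_⟩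
      · have hz : (ψ ⟨a * y⁻¹ * a⁻¹, hya⟩ : P) = ψ (⟨y, hy⟩⁻¹) := by
          apply Subtype.ext
          show (a * y⁻¹ * a⁻¹) ^ p = (y⁻¹) ^ p
          have hc : a * (y⁻¹) ^ p = (y⁻¹) ^ p * a := by
            have := hΦA _ (CfsgLib.PGroup.pow_mem_frattini hP (⟨y, hy⟩⁻¹)) a ha
            simpa using this
          rw [conj_pow, hc, mul_inv_cancel_right]
        rw [map_mul, hz, ← map_mul, mul_inv_cancel, map_one]
      · simp [commutatorElement_def, mul_assoc]
    obtain ⟨y, hy, hyx⟩ := hker (hPA.symm.le hx)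
    have h1 : y ^ p = 1 := hy
    rw [← hyx]
    exact congrArg Subtype.val h1

end CfsgLib.Hall.HHReduction
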