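/-
Indecomposable coprime actions on abelian `p`-groups.
-/
import Cfsg.Agent.Hall.Basic

set_option autoImplicit false
set_option linter.style.haveILetI false

namespace CfsgLib.Hall.Indecomposable

variable {A : Type*} [CommGroup A]

/-- `B` is mapped into itself by all members of `X`. -/
def Inv (X : Subgroup (MulAut A)) (B : Subgroup A) : Prop := ∀ x ∈ X, ∀ b ∈ B, x b ∈ B

theorem inv_iff (X : Subgroup (MulAut A)) (B : Subgroup A) :
    Inv X B ↔ ∀ x ∈ X, B.map x.toMonoidHom = B := by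
  constructor
  · intro h x hx
    refine le_antisymm ?_ fun b hb => ⟨x⁻¹ b, h _ (X.inv_mem hx) b hb, MulAut.apply_inv_self A x b⟩
    rintro _ ⟨b, hb, rfl⟩
    exact h x hx b hb
  · intro h x hx b hb
    exact (h x hx).le ⟨b, hb, rfl⟩

theorem map_pow_inv (X : Subgroup (MulAut A)) (B : Subgroup A) (n : ℕ) (hB : Inv X B) :
    Inv X (B.map (powMonoidHom n)) := by
  rintro x hx _ ⟨b, hb, rfl⟩
  exact ⟨x b, hB x hx b hb, by simp⟩

theorem inf_inv (X : Subgroup (MulAut A)) (B C : Subgroup A) (hB : Inv X B) (hC : Inv X C) : Inv X (B ⊓ C) :=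
  fun x hx b hb => ⟨hB x hx b hb.1, hC x hx b hb.2⟩

/-- Averaging a projection. -/
theorem average [Finite A] (X : Subgroup (MulAut A)) (D K R C : Subgroup A)
    (hD : Inv X D) (hK : Inv X K) (hR : Inv X R) (hRK : R ≤ K) (hKD : K ≤ D)
    (hCK : C ⊓ K = R) (hsup : C ⊔ K = D) (hcop : (Nat.card X).Coprime (Nat.card A)) :
    ∃ D' : Subgroup A, Inv X D' ∧ R ≤ D' ∧ D' ≤ D ∧ D' ⊓ K = R ∧ D' ⊔ K = D := by
  classical
  haveI : Finite (MulAut A) := Finite.of_injective _ DFunLike.coe_injective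
  haveI : Fintype X := Fintype.ofFinite X
  have hdec : ∀ d : A, ∃ k : A, d ∈ D → k ∈ K ∧ d * k⁻¹ ∈ C := fun d => by
    by_cases hd : d ∈ D
    · obtain ⟨c, hc, k, hk, rfl⟩ := Subgroup.mem_sup.mp (hsup.symm ▸ hd : d ∈ C ⊔ K)
      exact ⟨k, fun _ => ⟨hk, by simpa using hc⟩⟩
    · exact ⟨1, fun h => absurd h hd⟩
  choose f hf using hdec
  have funiq : ∀ d ∈ D, ∀ k ∈ K, d * k⁻¹ ∈ C → (f d)⁻¹ * k ∈ R := fun d hd k hk hc => by
    rw [← hCK]
    refine ⟨?_, K.mul_mem (K.inv_mem (hf d hd).1) hk⟩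
    have := C.mul_mem (hf d hd).2 (C.inv_mem hc)
    rwa [show d * (f d)⁻¹ * (d * k⁻¹)⁻¹ = (f d)⁻¹ * k by
      rw [mul_inv_rev, inv_inv, mul_comm d (f d)⁻¹, mul_assoc, mul_comm k d⁻¹, ← mul_assoc d, mul_inv_cancel, one_mul]] at this
  have hinvX : ∀ (x : X) (d : A), d ∈ D → ((x : MulAut A)⁻¹) d ∈ D := fun x d hd => hD _ (X.inv_mem x.2) d hd
  let g : A → A := fun d => ∏ x : X, (x : MulAut A) (f (((x : MulAut A)⁻¹) d))
  let Φ : D →* A ⧸ R := MonoidHom.mk' (fun d => (g d : A ⧸ R)) fun d e => by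
    rw [← QuotientGroup.mk_mul, QuotientGroup.eq]
    rw [← Finset.prod_mul_distrib, ← Finset.prod_inv_distrib, ← Finset.prod_mul_distrib]
    refine R.prod_mem fun x _ => ?_
    rw [← map_mul, ← map_inv, ← map_mul]
    refine hR _ x.2 _ ?_
    set d' := ((x : MulAut A)⁻¹) d with hd'
    set e' := ((x : MulAut A)⁻¹) e with he'
    have hde : ((x : MulAut A)⁻¹) ((d * e : D) : A) = d' * e' := by simp [hd', he']
    rw [hde]
    refine funiq _ (D.mul_mem (hinvX x d d.2) (hinvX x e e.2)) _ (K.mul_mem (hf d' (hinvX x d d.2)).1 (hf e' (hinvX x e e.2)).1) ?_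
    have := C.mul_mem (hf d' (hinvX x d d.2)).2 (hf e' (hinvX x e e.2)).2
    rwa [mul_mul_mul_comm, ← mul_inv] at this
  have hgK : ∀ d ∈ D, g d ∈ K := fun d hd =>
    K.prod_mem fun x _ => hK _ x.2 _ (hf _ (hinvX x d hd)).1
  have hPhiK : ∀ k (hk : k ∈ K), Φ ⟨k, hKD hk⟩ = ((k ^ Nat.card X : A) : A ⧸ R) := by
    intro k hk
    show (g k : A ⧸ R) = _
    rw [QuotientGroup.eq, Nat.card_eq_fintype_card, ← Finset.card_univ, ← Finset.prod_const,
      ← Finset.prod_inv_distrib, ← Finset.prod_mul_distrib]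
    refine R.prod_mem fun x _ => ?_
    have := hR _ x.2 _ (funiq _ (hinvX x k (hKD hk)) _ (hK _ (X.inv_mem x.2) k hk) (by simp))
    rwa [map_mul, map_inv, MulAut.apply_inv_self] at this
  have hequiv : ∀ (y : X) (d : A), g ((y : MulAut A) d) = (y : MulAut A) (g d) := fun y d => by
    show ∏ x : X, _ = _
    rw [map_prod]
    refine Fintype.prod_equiv (Equiv.mulLeft y⁻¹) _ _ fun x => ?_
    simp [MulAut.mul_apply, mul_inv_rev]
  refine ⟨Φ.ker.map D.subtype, ?_, fun r hr => ?_, Subgroup.map_subtype_le _, le_antisymm ?_ ?_, le_antisymm ?_ ?_⟩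
  · rintro x hx _ ⟨d, hd, rfl⟩
    refine ⟨⟨x d, hD x hx d d.2⟩, ?_, rfl⟩
    have h1 : g d ∈ R := (QuotientGroup.eq_one_iff _).mp hd
    refine (QuotientGroup.eq_one_iff _).mpr ?_
    show g (x (d : A)) ∈ R
    rw [hequiv ⟨x, hx⟩ d]
    exact hR x hx _ h1
  · refine ⟨⟨r, hKD (hRK hr)⟩, ?_, rfl⟩
    rw [SetLike.mem_coe, MonoidHom.mem_ker, hPhiK r (hRK hr)]
    exact (QuotientGroup.eq_one_iff _).mpr (R.pow_mem hr _)
  · rintro _ ⟨⟨d, hd, rfl⟩, hdK⟩
    have h1 : (d : A) ^ Nat.card X ∈ R :=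
      (QuotientGroup.eq_one_iff _).mp ((hPhiK _ hdK).symm.trans hd)
    obtain ⟨m, hm⟩ := exists_pow_eq_self_of_coprime (hcop.coprime_dvd_right (orderOf_dvd_natCard (d : A)))
    show (d : A) ∈ R
    exact hm ▸ R.pow_mem h1 m
  · exact fun r hr => ⟨⟨⟨r, hKD (hRK hr)⟩, by
      rw [SetLike.mem_coe, MonoidHom.mem_ker, hPhiK r (hRK hr)]
      exact (QuotientGroup.eq_one_iff _).mpr (R.pow_mem hr _), rfl⟩, hRK hr⟩
  · exact sup_le (Subgroup.map_subtype_le _) hKD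
  · intro d hd
    obtain ⟨k, hk⟩ := (powCoprime ((hcop.coprime_dvd_right K.card_subgroup_dvd_card).symm)).surjective
      ⟨g d, hgK d hd⟩
    have hk' : (k : A) ^ Nat.card X = g d := congrArg Subtype.val hk
    refine Subgroup.mem_sup.mpr ⟨d * (k : A)⁻¹, ⟨⟨d, hd⟩ * ⟨k, hKD k.2⟩⁻¹, ?_, rfl⟩, k, k.2, by simp⟩
    rw [SetLike.mem_coe, MonoidHom.mem_ker, map_mul, map_inv, hPhiK _ k.2, hk']
    exact mul_inv_cancel _

/-- Adjoining an element of order `p` modulo `C` keeps the intersection with `K`. -/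
theorem extend_inf [Finite A] {p : ℕ} [Fact p.Prime] (C K : Subgroup A) (x : A) (hx : x ^ p ∈ C)
    (hout : x ∉ C ⊔ K) : (C ⊔ Subgroup.zpowers x) ⊓ K = C ⊓ K := by
  refine le_antisymm ?_ (inf_le_inf_right _ le_sup_left)
  rintro k ⟨hk1, hk2⟩
  refine ⟨?_, hk2⟩
  obtain ⟨c, hc, z, hz, hck⟩ := Subgroup.mem_sup.mp hk1
  obtain ⟨j, rfl⟩ := Subgroup.mem_zpowers_iff.mp hz
  by_cases hj : (p : ℤ) ∣ j
  · obtain ⟨i, rfl⟩ := hj
    rw [← hck, zpow_mul, zpow_natCast]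
    exact C.mul_mem hc (C.zpow_mem hx i)
  · exfalso
    apply hout
    have hcop : IsCoprime j (p : ℤ) :=
      ((Nat.prime_iff_prime_int.mp (Fact.out : p.Prime)).coprime_iff_not_dvd.mpr hj).symm
    obtain ⟨u, v, huv⟩ := hcop
    have hxj : x ^ j ∈ C ⊔ K := by
      rw [show x ^ j = c⁻¹ * k by rw [← hck, inv_mul_cancel_left]]
      exact (C ⊔ K).mul_mem ((C ⊔ K).inv_mem (Subgroup.mem_sup_left hc)) (Subgroup.mem_sup_right hk2)
    rw [← zpow_one x, ← huv, zpow_add, zpow_mul', zpow_mul', zpow_natCast]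
    exact (C ⊔ K).mul_mem ((C ⊔ K).zpow_mem hxj u) ((C ⊔ K).zpow_mem (Subgroup.mem_sup_left hx) v)

/-- An indecomposable action has irreducible `Ω₁`. -/
theorem irreducible_of_indecomposable [Finite A] {p : ℕ} [Fact p.Prime] (hA : IsPGroup p A)
    (X : Subgroup (MulAut A)) (hX : (Nat.card X).Coprime p)
    (hind : ∀ B C : Subgroup A, Inv X B → Inv X C → B ⊓ C = ⊥ → B ⊔ C = ⊤ → B = ⊥ ∨ C = ⊥) :
    ∀ B : Subgroup A, Inv X B → (∀ b ∈ B, b ^ p = 1) → B = ⊥ ∨ ∀ a : A, a ∈ B ↔ a ^ p = 1 := by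
  classical
  intro B₀ hB₀ hB₀p
  by_cases hne : B₀ = ⊥
  · exact Or.inl hne
  right
  obtain ⟨m, hm⟩ := hA.exists_card_eq
  have hcop : (Nat.card X).Coprime (Nat.card A) := by rw [hm]; exact hX.pow_right m
  have hex : ∃ n, ∀ a : A, a ^ p ^ n = 1 := ⟨m, fun a => by rw [← hm]; exact pow_card_eq_one'⟩
  set n := Nat.find hex with hn
  have hexp : ∀ a : A, a ^ p ^ n = 1 := Nat.find_spec hex
  have hn0 : n ≠ 0 := fun h0 => hne (eq_bot_iff.mpr fun b _ => Subgroup.mem_bot.mpr (by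
    have := hexp b; rwa [h0, pow_zero, pow_one] at this))
  set q : A →* A := powMonoidHom (p ^ (n - 1)) with hq
  have hqp : ∀ a, q a ^ p = 1 := fun a => by
    show (a ^ p ^ (n - 1)) ^ p = 1
    rw [← pow_mul, ← pow_succ, show n - 1 + 1 = n by omega]; exact hexp a
  have hIne : (⊤ : Subgroup A).map q ≠ ⊥ := by
    intro h
    refine Nat.find_min hex (show n - 1 < n by omega) fun a => ?_
    exact Subgroup.mem_bot.mp (h ▸ ⟨a, Subgroup.mem_top a, rfl⟩)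
  have htop : Inv X (⊤ : Subgroup A) := fun _ _ _ _ => Subgroup.mem_top _
  obtain ⟨U, hU⟩ := (Set.toFinite {U : Subgroup A | Inv X U ∧ U ≤ (⊤ : Subgroup A).map q ∧ U ≠ ⊥}).exists_minimal
    ⟨_, map_pow_inv X ⊤ _ htop, le_rfl, hIne⟩
  obtain ⟨hUi, hUI, hUne⟩ := hU.prop
  obtain ⟨D, hD⟩ := (Set.toFinite {D : Subgroup A | Inv X D ∧ U ≤ D.map q}).exists_minimal ⟨⊤, htop, hUI⟩
  obtain ⟨hDi, hUD⟩ := hD.prop
  have hDU : D.map q = U := by
    refine le_antisymm ?_ hUD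
    have hD' : D ⊓ U.comap q = D := by
      refine le_antisymm inf_le_left (hD.2 ⟨fun x hx d hd => ⟨hDi x hx d hd.1, ?_⟩, ?_⟩ inf_le_left)
      · show (x d) ^ p ^ (n - 1) ∈ U
        rw [← map_pow]; exact hUi x hx _ hd.2
      · intro u hu
        obtain ⟨d, hd, rfl⟩ := hUD hu
        exact ⟨d, ⟨hd, hu⟩, rfl⟩
    rintro _ ⟨d, hd, rfl⟩
    exact (hD'.symm ▸ hd : d ∈ D ⊓ U.comap q).2
  -- the kernel of `q` on `D` consists of `p`-th powers
  set K := D ⊓ q.ker with hKd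
  set R := D.map (powMonoidHom p : A →* A) with hRd
  have hKi : Inv X K := fun x hx d hd => ⟨hDi x hx d hd.1, by
    show (x d) ^ p ^ (n - 1) = 1
    rw [← map_pow, show d ^ p ^ (n - 1) = 1 from hd.2, map_one]⟩
  have hRK : R ≤ K := by
    rintro _ ⟨d, hd, rfl⟩
    refine ⟨D.pow_mem hd p, ?_⟩
    show (d ^ p) ^ p ^ (n - 1) = 1
    rw [← pow_mul, mul_comm, pow_mul]; exact hqp d
  have hKR : K = R := by
    obtain ⟨C, hC⟩ := (Set.toFinite {C : Subgroup A | R ≤ C ∧ C ≤ D ∧ C ⊓ K = R}).exists_maximal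
      ⟨R, le_rfl, hRK.trans inf_le_left, inf_eq_left.mpr hRK⟩
    obtain ⟨hRC, hCD, hCK⟩ := hC.prop
    have hsup : C ⊔ K = D := by
      refine le_antisymm (sup_le hCD inf_le_left) fun d hd => ?_
      by_contra hout
      exact hout (Subgroup.mem_sup_left (hC.2 ⟨hRC.trans le_sup_left, sup_le hCD (Subgroup.zpowers_le.mpr hd),
        (extend_inf (p := p) C K d (hRC ⟨d, hd, rfl⟩) hout).trans hCK⟩ le_sup_left
        (Subgroup.mem_sup_right (Subgroup.mem_zpowers d))))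
    obtain ⟨D', hD'i, -, hD'D, hD'K, hD's⟩ :=
      average X D K R C hDi hKi (map_pow_inv X D p hDi) hRK inf_le_left hCK hsup hcop
    have hU' : U ≤ D'.map q := by
      intro u hu
      obtain ⟨d, hd, rfl⟩ := hUD hu
      obtain ⟨a, ha, k, hk, rfl⟩ := Subgroup.mem_sup.mp (hD's.symm ▸ hd : d ∈ D' ⊔ K)
      exact ⟨a, ha, by rw [map_mul, show q k = 1 from hk.2, mul_one]⟩
    rw [show D' = D from le_antisymm hD'D (hD.2 ⟨hD'i, hU'⟩ hD'D), inf_eq_right.mpr (inf_le_left : K ≤ D)] at hD'K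
    exact hD'K
  -- `D` has a complement
  obtain ⟨C, hC⟩ := (Set.toFinite {C : Subgroup A | C ⊓ D = ⊥}).exists_maximal ⟨⊥, bot_inf_eq D⟩
  have hCDb : C ⊓ D = ⊥ := hC.prop
  have hCD : C ⊔ D = ⊤ := by
    by_contra hne'
    obtain ⟨a, ha⟩ : ∃ a, a ∉ C ⊔ D := by
      by_contra h; push Not at h; exact hne' (eq_top_iff.mpr fun a _ => h a)
    have hk : ∃ k, a ^ p ^ k ∈ C ⊔ D := ⟨n, by rw [hexp]; exact one_mem _⟩
    set k := Nat.find hk with hkd
    have hkspec : a ^ p ^ k ∈ C ⊔ D := Nat.find_spec hk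
    have hk0 : k ≠ 0 := fun h => ha (by rw [h, pow_zero, pow_one] at hkspec; exact hkspec)
    set y := a ^ p ^ (k - 1) with hy
    have hy1 : y ∉ C ⊔ D := Nat.find_min hk (show k - 1 < k by omega)
    have hy2 : y ^ p ∈ C ⊔ D := by
      rw [hy, ← pow_mul, ← pow_succ, show k - 1 + 1 = k by omega]; exact hkspec
    obtain ⟨c, hc, d, hd, hcd⟩ := Subgroup.mem_sup.mp hy2
    have hdR : d ∈ R := by
      rw [← hKR]
      refine ⟨hd, MonoidHom.mem_ker.mpr ?_⟩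
      have h1 : q c * q d = 1 := by
        rw [← map_mul, hcd, map_pow]; exact hqp y
      have h2 : q d ∈ C ⊓ D := ⟨(eq_inv_of_mul_eq_one_right h1) ▸ C.inv_mem (C.pow_mem hc _), D.pow_mem hd _⟩
      rw [hCDb] at h2; exact h2
    obtain ⟨e, he, hed⟩ := hdR
    have hzC : (y * e⁻¹) ^ p ∈ C := by
      rw [mul_pow, inv_pow, show e ^ p = d from hed, ← hcd, mul_inv_cancel_right]; exact hc
    have hzout : y * e⁻¹ ∉ C ⊔ D := fun h => hy1 (by
      have := (C ⊔ D).mul_mem h (Subgroup.mem_sup_right he)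
      rwa [inv_mul_cancel_right] at this)
    exact hzout (Subgroup.mem_sup_left (hC.2 ((extend_inf (p := p) C D _ hzC hzout).trans hCDb) le_sup_left
      (Subgroup.mem_sup_right (Subgroup.mem_zpowers _))))
  obtain ⟨D', hD'i, -, -, hD'b, hD't⟩ := average X ⊤ D ⊥ C htop hDi
    (fun x _ b hb => by rw [Subgroup.mem_bot.mp hb, map_one]; exact one_mem _) bot_le le_top hCDb hCD hcop
  have hDtop : D = ⊤ := by
    rcases hind D' D hD'i hDi hD'b hD't with h | h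
    · rwa [h, bot_sup_eq] at hD't
    · exact absurd (eq_bot_iff.mpr (hUD.trans (by rw [h, Subgroup.map_bot]))) hUne
  -- elements of order `p` lie in `U`
  have hΩU : ∀ a : A, a ^ p = 1 → a ∈ U := by
    intro a ha
    have key : ∀ j, j ≤ n - 1 → ∃ e : A, e ^ p ^ j = a := by
      intro j
      induction j with
      | zero => exact fun _ => ⟨a, by simp⟩
      | succ j ih =>
        intro hj
        obtain ⟨e, he⟩ := ih (by omega)
        have : e ∈ R := by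
          rw [← hKR, hKd, hDtop]
          refine ⟨Subgroup.mem_top e, MonoidHom.mem_ker.mpr ?_⟩
          show e ^ p ^ (n - 1) = 1
          rw [show n - 1 = j + (1 + (n - 1 - j - 1)) by omega, pow_add, pow_add, pow_mul, pow_mul, he, pow_one, ha, one_pow]
        obtain ⟨e', -, he'⟩ := this
        exact ⟨e', by rw [pow_succ', pow_mul, show e' ^ p = e from he', he]⟩
    obtain ⟨e, he⟩ := key (n - 1) le_rfl
    rw [← hDU, hDtop]
    exact ⟨e, Subgroup.mem_top e, he⟩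
  have hle : B₀ ≤ U := fun b hb => hΩU b (hB₀p b hb)
  have hB₀U : U ≤ B₀ := hU.2 ⟨hB₀, hle.trans hUI, hne⟩ hle
  exact fun a => ⟨hB₀p a, fun ha => hB₀U (hΩU a ha)⟩

theorem main [Finite A] {p : ℕ} [Fact p.Prime] (hA : IsPGroup p A) (X : Subgroup (MulAut A))
    (hX : (Nat.card X).Coprime p) :
    ((¬ ∃ B C : Subgroup A, B ≠ ⊥ ∧ C ≠ ⊥ ∧ (∀ x ∈ X, B.map x.toMonoidHom = B) ∧
        (∀ x ∈ X, C.map x.toMonoidHom = C) ∧ B ⊓ C = ⊥ ∧ B ⊔ C = ⊤) ↔
      (∀ B : Subgroup A, (∀ x ∈ X, B.map x.toMonoidHom = B) → ∃ i : ℕ, ∀ a : A, a ∈ B ↔ a ^ p ^ i = 1)) ∧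
    ((∀ B : Subgroup A, (∀ x ∈ X, B.map x.toMonoidHom = B) → ∃ i : ℕ, ∀ a : A, a ∈ B ↔ a ^ p ^ i = 1) ↔
      (∀ B : Subgroup A, (∀ x ∈ X, B.map x.toMonoidHom = B) → (∀ b ∈ B, b ^ p = 1) →
        B = ⊥ ∨ ∀ a : A, a ∈ B ↔ a ^ p = 1)) := by
  classical
  simp only [← inv_iff]
  obtain ⟨m, hm⟩ := hA.exists_card_eq
  have h32 : (∀ B : Subgroup A, Inv X B → (∀ b ∈ B, b ^ p = 1) → B = ⊥ ∨ ∀ a : A, a ∈ B ↔ a ^ p = 1) →
      ∀ B : Subgroup A, Inv X B → ∃ i : ℕ, ∀ a : A, a ∈ B ↔ a ^ p ^ i = 1 := by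
    intro h B hB
    have hex : ∃ i, ∀ b ∈ B, b ^ p ^ i = 1 := ⟨m, fun b _ => by rw [← hm]; exact pow_card_eq_one'⟩
    refine ⟨Nat.find hex, fun a => ⟨fun ha => Nat.find_spec hex a ha, ?_⟩⟩
    suffices key : ∀ j, j ≤ Nat.find hex → ∀ a : A, a ^ p ^ j = 1 → a ∈ B from key _ le_rfl a
    intro j
    induction j with
    | zero => intro _ a ha; rw [pow_zero, pow_one] at ha; rw [ha]; exact B.one_mem
    | succ j ih =>
      intro hj a ha
      set L := B ⊓ (powMonoidHom (p ^ (j + 1)) : A →* A).ker with hL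
      have hLi : Inv X L := fun x hx b hb => ⟨hB x hx b hb.1, by
        show (x b) ^ p ^ (j + 1) = 1
        rw [← map_pow, show b ^ p ^ (j + 1) = 1 from hb.2, map_one]⟩
      have hlp : ∀ y ∈ L.map (powMonoidHom (p ^ j) : A →* A), y ^ p = 1 := by
        rintro _ ⟨b, hb, rfl⟩
        show (b ^ p ^ j) ^ p = 1
        rw [← pow_mul, ← pow_succ]; exact hb.2
      rcases h _ (map_pow_inv X L _ hLi) hlp with h0 | h0
      · -- impossible as the exponent of `B` is larger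
        exfalso
        have hmin := Nat.find_min hex (show j < Nat.find hex by omega)
        push Not at hmin
        obtain ⟨b, hb, hb1⟩ := hmin
        have hk : ∃ k, b ^ p ^ k = 1 := ⟨m, by rw [← hm]; exact pow_card_eq_one'⟩
        have hkj : j < Nat.find hk := by
          by_contra hle
          obtain ⟨r, hr⟩ := Nat.exists_eq_add_of_le (Nat.le_of_not_lt hle)
          exact hb1 (by rw [hr, pow_add, pow_mul, Nat.find_spec hk, one_pow])
        obtain ⟨r, hr⟩ := Nat.exists_eq_add_of_le hkj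
        have hmem : b ^ p ^ r ∈ L := ⟨B.pow_mem hb _, by
          show (b ^ p ^ r) ^ p ^ (j + 1) = 1
          rw [← pow_mul, ← pow_add, show r + (j + 1) = Nat.find hk by omega]; exact Nat.find_spec hk⟩
        refine Nat.find_min hk (show r + j < Nat.find hk by omega) ?_
        rw [pow_add, pow_mul]
        exact Subgroup.mem_bot.mp (h0 ▸ ⟨b ^ p ^ r, hmem, rfl⟩)
      · obtain ⟨b, hb, hbe⟩ := (h0 (a ^ p ^ j)).mpr (by rw [← pow_mul, ← pow_succ]; exact ha)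
        have hab : (a * b⁻¹) ^ p ^ j = 1 := by
          rw [mul_pow, inv_pow, show b ^ p ^ j = a ^ p ^ j from hbe, mul_inv_cancel]
        have := B.mul_mem (ih (by omega) _ hab) hb.1
        rwa [inv_mul_cancel_right] at this
  have h21 : (∀ B : Subgroup A, Inv X B → ∃ i : ℕ, ∀ a : A, a ∈ B ↔ a ^ p ^ i = 1) →
      ¬ ∃ B C : Subgroup A, B ≠ ⊥ ∧ C ≠ ⊥ ∧ Inv X B ∧ Inv X C ∧ B ⊓ C = ⊥ ∧ B ⊔ C = ⊤ := by
    rintro h ⟨B, C, hB, hC, hBi, hCi, hbc, -⟩
    obtain ⟨i, hi⟩ := h B hBi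
    obtain ⟨j, hj⟩ := h C hCi
    have hpos : ∀ (S : Subgroup A) (k : ℕ), S ≠ ⊥ → (∀ a : A, a ∈ S ↔ a ^ p ^ k = 1) → ∀ a : A, a ^ p = 1 → a ∈ S := by
      intro S k hS hk a ha
      refine (hk a).mpr ?_
      rcases k with _ | k
      · exact absurd (eq_bot_iff.mpr fun s hs => Subgroup.mem_bot.mpr (by simpa using (hk s).mp hs)) hS
      · rw [pow_succ', pow_mul, ha, one_pow]
    obtain ⟨a, ha⟩ := exists_prime_orderOf_dvd_card' (G := B) p (by
      obtain ⟨k, hk⟩ := (hA.to_subgroup B).exists_card_eq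
      rw [hk]
      exact dvd_pow_self p fun h0 => hB (Subgroup.card_eq_one.mp (by rw [hk, h0, pow_zero])))
    have h1 : (a : A) = 1 := Subgroup.mem_bot.mp
      (hbc ▸ ⟨a.2, hpos C j hC hj _ (by rw [← Subgroup.coe_pow, ← ha, pow_orderOf_eq_one]; rfl)⟩)
    rw [← Subgroup.orderOf_coe, h1, orderOf_one] at ha
    exact (Fact.out : p.Prime).one_lt.ne ha
  have h13 : (¬ ∃ B C : Subgroup A, B ≠ ⊥ ∧ C ≠ ⊥ ∧ Inv X B ∧ Inv X C ∧ B ⊓ C = ⊥ ∧ B ⊔ C = ⊤) →
      ∀ B : Subgroup A, Inv X B → (∀ b ∈ B, b ^ p = 1) → B = ⊥ ∨ ∀ a : A, a ∈ B ↔ a ^ p = 1 := by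
    intro h
    refine irreducible_of_indecomposable hA X hX fun B C hB hC h1 h2 => ?_
    by_contra hne
    push Not at hne
    exact h ⟨B, C, hne.1, hne.2, hB, hC, h1, h2⟩
  exact ⟨⟨fun h => h32 (h13 h), h21⟩, ⟨fun h => h13 (h21 h), h32⟩⟩

end CfsgLib.Hall.Indecomposable
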