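/-
2-groups of class two and exponent four with few involutions: a divisibility from quadratic sums.
-/
import Cfsg.Agent.PGroup.Basic
import Cfsg.Agent.PGroup.Critical
import Cfsg.Prelude.Def_Transfer

set_option autoImplicit false
set_option linter.style.haveILetI false

namespace CfsgLib.Hall.SquareMap

open scoped commutatorElement

theorem dvd_sum_sq {ι : Type*} (s : Finset ι) (f : ι → ℤ) (n : ℤ) (h : ∀ i ∈ s, n ∣ f i ^ 2) :
    n ∣ (∑ i ∈ s, f i) ^ 2 := by
  classical
  induction s using Finset.induction_on with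
  | empty => simp
  | insert a s ha ih =>
    rw [Finset.sum_insert ha, add_sq]
    have h1 := h a (Finset.mem_insert_self a s)
    have h2 := ih fun i hi => h i (Finset.mem_insert_of_mem hi)
    refine dvd_add (dvd_add h1 ?_) h2
    rw [mul_assoc]
    refine Dvd.dvd.mul_left ((Int.pow_dvd_pow_iff two_ne_zero).mp ?_) 2
    rw [mul_pow, pow_two n]
    exact mul_dvd_mul h1 h2

/-- An index-two homomorphism separating a subgroup from an element. -/
theorem exists_character {Z : Type*} [Group Z] [Finite Z] (hz : ∀ x : Z, x * x = 1) (K₀ : Subgroup Z)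
    (z : Z) (hzK : z ∉ K₀) : ∃ χ : Z →* ℤˣ, χ z = -1 ∧ ∀ k ∈ K₀, χ k = 1 := by
  classical
  obtain ⟨K, hK⟩ := (Set.toFinite {K : Subgroup Z | K₀ ≤ K ∧ z ∉ K}).exists_maximal ⟨K₀, le_rfl, hzK⟩
  obtain ⟨hK0, hzK'⟩ := hK.prop
  have hinv : ∀ x : Z, x⁻¹ = x := fun x => inv_eq_of_mul_eq_one_right (hz x)
  have hc : ∀ x y : Z, x * y = y * x := fun x y => by
    calc x * y = (x * y)⁻¹ := (hinv _).symm
      _ = y * x := by rw [mul_inv_rev, hinv, hinv]
  have hout : ∀ y, y ∉ K → z * y ∈ K := by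
    intro y hy
    let K' : Subgroup Z :=
      { carrier := {w | w ∈ K ∨ w * y ∈ K}
        one_mem' := Or.inl K.one_mem
        mul_mem' := by
          rintro a b (ha | ha) (hb | hb)
          · exact Or.inl (K.mul_mem ha hb)
          · exact Or.inr (by rw [mul_assoc]; exact K.mul_mem ha hb)
          · exact Or.inr (by rw [mul_assoc, hc b y, ← mul_assoc]; exact K.mul_mem ha hb)
          · refine Or.inl ?_
            have := K.mul_mem ha hb
            rwa [hc b y, mul_assoc a y, ← mul_assoc y y b, hz y, one_mul] at this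
        inv_mem' := fun {a} ha => by simpa [hinv a] using ha }
    have hle : K ≤ K' := fun w hw => Or.inl hw
    by_contra hzy
    have hmem : z ∉ K' := fun h => h.elim hzK' hzy
    exact hy (hK.2 ⟨hK0.trans hle, hmem⟩ hle (show y ∈ K' from Or.inr (by rw [hz]; exact K.one_mem)))
  refine ⟨MonoidHom.mk' (fun x => if x ∈ K then 1 else -1) fun x y => ?_, if_neg hzK', fun k hk => if_pos (hK0 hk)⟩
  by_cases hx : x ∈ K
  · by_cases hy : y ∈ K
    · simp [hx, hy, K.mul_mem hx hy]
    · have : x * y ∉ K := fun h => hy ((K.mul_mem_cancel_left hx).mp h)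
      simp [hx, hy, this]
  · by_cases hy : y ∈ K
    · have : x * y ∉ K := fun h => hx ((K.mul_mem_cancel_right hy).mp h)
      simp [hx, hy, this]
    · have hxy : x * y ∈ K := by
        have := K.mul_mem (hout x hx) (hout y hy)
        rwa [hc z x, mul_assoc x z, ← mul_assoc z z y, hz z, one_mul] at this
      simp [hx, hy, hxy]

theorem sum_eq_zero_of_neg {A : Type*} [Fintype A] (e : A ≃ A) (f : A → ℤ) (h : ∀ a, f (e a) = - f a) :
    ∑ a, f a = 0 := by
  have h2 : ∑ a, f a = - ∑ a, f a := by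
    conv_lhs => rw [← Equiv.sum_comp e f]
    simp only [h, Finset.sum_neg_distrib]
  omega

theorem character_sum {Z : Type*} [Group Z] [Fintype Z] [Fintype (Z →* ℤˣ)] [DecidableEq Z]
    (hz : ∀ x : Z, x * x = 1) (z : Z) :
    ∑ χ : Z →* ℤˣ, ((χ z : ℤˣ) : ℤ) = if z = 1 then (Fintype.card (Z →* ℤˣ) : ℤ) else 0 := by
  split_ifs with h
  · simp [h]
  · obtain ⟨χ₀, h0, -⟩ := exists_character hz ⊥ z (by simpa using h)
    exact sum_eq_zero_of_neg (Equiv.mulLeft χ₀) _ fun χ => by simp [h0]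

theorem card_dual {Z : Type*} [Group Z] [Fintype Z] [Fintype (Z →* ℤˣ)] [DecidableEq Z]
    (hz : ∀ x : Z, x * x = 1) : Fintype.card (Z →* ℤˣ) = Fintype.card Z := by
  classical
  have h : ∑ z : Z, ∑ χ : Z →* ℤˣ, ((χ z : ℤˣ) : ℤ) = ∑ χ : Z →* ℤˣ, ∑ z : Z, ((χ z : ℤˣ) : ℤ) :=
    Finset.sum_comm
  have hin : ∀ χ : Z →* ℤˣ, ∑ z : Z, ((χ z : ℤˣ) : ℤ) = if χ = 1 then (Fintype.card Z : ℤ) else 0 := by
    intro χ
    split_ifs with hχ
    · simp [hχ]
    · obtain ⟨z₀, hz₀⟩ : ∃ z₀, χ z₀ ≠ 1 := by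
        by_contra hcon
        push Not at hcon
        exact hχ (MonoidHom.ext hcon)
      have h1 : χ z₀ = -1 := (Int.units_eq_one_or _).resolve_left hz₀
      exact sum_eq_zero_of_neg (Equiv.mulLeft z₀) _ fun a => by simp [h1]
  simp only [character_sum hz, hin, Finset.sum_ite_eq', Finset.mem_univ, if_true] at h
  exact_mod_cast h

theorem key {G : Type*} [Group G] [Finite G] (Z K : Subgroup G) (hZc : Z ≤ Subgroup.center G)
    (hK : K ≤ Subgroup.center G) (hZ2 : ∀ z ∈ Z, z * z = 1) (hsq : ∀ x : G, x ^ 2 ∈ Z)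
    (hcm : ∀ a b : G, ⁅a, b⁆ ∈ Z) :
    Nat.card G * Nat.card K ∣ (Nat.card Z * Nat.card {x : G // x ^ 2 = 1}) ^ 2 := by
  classical
  haveI : Fintype G := Fintype.ofFinite G
  haveI : Finite (Z →* ℤˣ) := Finite.of_injective _ DFunLike.coe_injective
  haveI : Fintype (Z →* ℤˣ) := Fintype.ofFinite _
  have h2 : ∀ a b : G, ⁅a, b⁆ ∈ Subgroup.center G := fun a b => hZc (hcm a b)
  let sq : G → Z := fun x => ⟨x ^ 2, hsq x⟩
  let cm : G → G → Z := fun a b => ⟨⁅a, b⁆, hcm a b⟩
  have hmul : ∀ x u : G, sq (x * u) = sq x * sq u * cm u x := fun x u => Subtype.ext (by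
    show (x * u) ^ 2 = x ^ 2 * u ^ 2 * ⁅u, x⁆
    rw [CfsgLib.PGroup.mul_pow_central (h2 u x), show Nat.choose 2 2 = 1 from rfl, pow_one])
  have hcmK : ∀ k ∈ K, ∀ x : G, cm k x = 1 ∧ cm x k = 1 := fun k hk x => by
    have := Subgroup.mem_center_iff.mp (hK hk) x
    exact ⟨Subtype.ext (commutatorElement_eq_one_iff_mul_comm.mpr this.symm),
      Subtype.ext (commutatorElement_eq_one_iff_mul_comm.mpr this)⟩
  have hsum : ∀ χ : Z →* ℤˣ, ((Nat.card G * Nat.card K : ℕ) : ℤ) ∣ (∑ x : G, ((χ (sq x) : ℤˣ) : ℤ)) ^ 2 := by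
    intro χ
    by_cases hk : ∀ k ∈ K, χ (sq k) = 1
    swap
    · push Not at hk
      obtain ⟨k, hkK, hk1⟩ := hk
      have h1 : χ (sq k) = -1 := (Int.units_eq_one_or _).resolve_left hk1
      rw [sum_eq_zero_of_neg (Equiv.mulRight k) _ fun x => by simp [hmul, (hcmK k hkK x).1, h1]]
      simp
    · have hexp : (∑ x : G, ((χ (sq x) : ℤˣ) : ℤ)) ^ 2 =
          ∑ u : G, ((χ (sq u) : ℤˣ) : ℤ) * ∑ x : G, ((χ (cm u x) : ℤˣ) : ℤ) := by
        rw [pow_two, Finset.sum_mul_sum]
        simp only [Finset.mul_sum]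
        rw [Finset.sum_comm (γ := G)]
        rw [Finset.sum_comm]
        conv_rhs => rw [Finset.sum_comm]
        refine Finset.sum_congr rfl fun x _ => ?_
        rw [← Equiv.sum_comp (Equiv.mulLeft x) fun y => ((χ (sq x) : ℤˣ) : ℤ) * ((χ (sq y) : ℤˣ) : ℤ)]
        refine Finset.sum_congr rfl fun u _ => ?_
        simp only [Equiv.coe_mulLeft, hmul, map_mul, Units.val_mul, ← mul_assoc, Int.units_coe_mul_self, one_mul]
      rw [hexp]
      set g : G → ℤ := fun u => if ∀ x, χ (cm u x) = 1 then ((χ (sq u) : ℤˣ) : ℤ) else 0 with hg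
      have hin : ∀ u : G, ((χ (sq u) : ℤˣ) : ℤ) * ∑ x : G, ((χ (cm u x) : ℤˣ) : ℤ) = (Nat.card G : ℤ) * g u := by
        intro u
        rw [hg]
        dsimp only
        split_ifs with hu
        · simp [hu, Nat.card_eq_fintype_card, mul_comm]
        · push Not at hu
          obtain ⟨x₀, hx₀⟩ := hu
          have h1 : χ (cm u x₀) = -1 := (Int.units_eq_one_or _).resolve_left hx₀
          have hcu : ∀ x, cm u (x₀ * x) = cm u x₀ * cm u x := fun x =>
            Subtype.ext (CfsgLib.PGroup.commutator_mul_right_central (h2 u x))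
          rw [sum_eq_zero_of_neg (Equiv.mulLeft x₀) _ fun x => by simp [hcu, h1]]
          simp
      simp only [hin, ← Finset.mul_sum]
      rw [Nat.cast_mul]
      refine mul_dvd_mul_left _ ?_
      have hgk : ∀ u, ∀ k ∈ K, g (u * k) = g u := by
        intro u k hkK
        have e1 : sq (u * k) = sq u * sq k := by rw [hmul, (hcmK k hkK u).1, mul_one]
        have e2 : ∀ x, cm (u * k) x = cm u x := fun x => by
          have h3 : ⁅k, x⁆ = 1 := congrArg Subtype.val (hcmK k hkK x).1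
          apply Subtype.ext
          show ⁅u * k, x⁆ = ⁅u, x⁆
          rw [CfsgLib.PGroup.commutator_mul_left_central (h2 k x), h3, mul_one]
        simp [hg, e1, e2, hk k hkK]
      rw [← Equiv.sum_comp (Subgroup.groupEquivQuotientProdSubgroup (s := K)).symm g, Fintype.sum_prod_type]
      refine Finset.dvd_sum fun q _ => ?_
      have : ∀ k : K, g ((Subgroup.groupEquivQuotientProdSubgroup (s := K)).symm (q, k)) =
          g ((Subgroup.groupEquivQuotientProdSubgroup (s := K)).symm (q, 1)) := by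
        intro k
        set a := (Subgroup.groupEquivQuotientProdSubgroup (s := K)).symm (q, k) with ha
        set b := (Subgroup.groupEquivQuotientProdSubgroup (s := K)).symm (q, (1 : K)) with hb
        have hab : (QuotientGroup.mk b : G ⧸ K) = QuotientGroup.mk a := by
          have fst : ∀ w : G, (Subgroup.groupEquivQuotientProdSubgroup (s := K) w).1 = QuotientGroup.mk w := fun w => rfl
          rw [← fst, ← fst, ha, hb, Equiv.apply_symm_apply, Equiv.apply_symm_apply]
        have hmem := QuotientGroup.eq.mp hab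
        rw [show a = b * (b⁻¹ * a) by rw [mul_inv_cancel_left]]
        exact hgk b _ hmem
      simp [this, Nat.card_eq_fintype_card]
  have htot : ∑ χ : Z →* ℤˣ, ∑ x : G, ((χ (sq x) : ℤˣ) : ℤ) =
      ((Nat.card Z * Nat.card {x : G // x ^ 2 = 1} : ℕ) : ℤ) := by
    have hz : ∀ z : Z, z * z = 1 := fun z => Subtype.ext (hZ2 z z.2)
    rw [Finset.sum_comm]
    simp only [character_sum hz, card_dual hz, Finset.sum_ite, Finset.sum_const_zero, add_zero, Finset.sum_const,
      nsmul_eq_mul]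
    rw [Nat.card_eq_fintype_card, Nat.card_eq_fintype_card, Fintype.card_subtype, Nat.cast_mul, mul_comm]
    congr 2
    rw [Fintype.card_subtype]
    refine congrArg Finset.card ?_
    ext x
    simp [sq, Subtype.ext_iff]
  have := dvd_sum_sq Finset.univ (fun χ : Z →* ℤˣ => ∑ x : G, ((χ (sq x) : ℤˣ) : ℤ)) _ fun χ _ => hsum χ
  rw [htot, ← Nat.cast_pow, Int.natCast_dvd_natCast] at this
  exact this

theorem main {G : Type*} [Group G] [Finite G] (hG : IsPGroup 2 G)
    (hcl : (⊤ : Subgroup G).lowerCentralSeries 2 = ⊥) (hexp : ∀ x : G, x ^ 4 = 1)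
    (hN : ∀ x y : G, x ^ 2 = 1 → y ^ 2 = 1 → (x * y) ^ 2 = 1) :
    Nat.card G ≤ Nat.card {x : G // x ^ 2 = 1} ^ 3 ∧
      (¬ Cfsg.IsSpecial 2 G → Nat.card G < Nat.card {x : G // x ^ 2 = 1} ^ 3) := by
  haveI : Fact (Nat.Prime 2) := ⟨Nat.prime_two⟩
  have hlc : ⁅commutator G, (⊤ : Subgroup G)⁆ = ⊥ := by
    simpa [Subgroup.lowerCentralSeries_succ, commutator_def] using hcl
  have h2 := CfsgLib.PGroup.class_two_of_commutator_top hlc
  have hc2 : ∀ a b : G, ⁅a, b⁆ ^ 2 = 1 := fun a b => by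
    have h := CfsgLib.PGroup.mul_pow_central (x := b) (y := a) (h2 a b) 4
    rw [hexp, hexp, hexp, one_mul, one_mul, show Nat.choose 4 2 = 4 + 2 from rfl, pow_add, hexp, one_mul] at h
    exact h.symm
  have hsqc : ∀ x : G, x ^ 2 ∈ Subgroup.center G := fun x => Subgroup.mem_center_iff.mpr fun y =>
    (commutatorElement_eq_one_iff_mul_comm.mp (by rw [CfsgLib.PGroup.commutator_pow_left h2, hc2])).symm
  have hx4 : ∀ x : G, (x ^ 2) ^ 2 = 1 := fun x => by rw [← pow_mul]; exact hexp x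
  let N : Subgroup G :=
    { carrier := {x | x ^ 2 = 1}
      one_mem' := one_pow 2
      mul_mem' := fun {a b} ha hb => hN a b ha hb
      inv_mem' := fun {a} (ha : a ^ 2 = 1) => show a⁻¹ ^ 2 = 1 by rw [inv_pow, ha, inv_one] }
  have hcardN : Nat.card {x : G // x ^ 2 = 1} = Nat.card N := rfl
  set Z0 := N ⊓ Subgroup.center G with hZ0
  have hmain := key Z0 Z0 inf_le_right inf_le_right
    (fun z hz => by rw [← pow_two]; exact hz.1) (fun x => ⟨hx4 x, hsqc x⟩) (fun a b => ⟨hc2 a b, h2 a b⟩)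
  rw [hcardN, mul_pow, pow_two (Nat.card Z0), mul_comm (Nat.card G), mul_assoc (Nat.card Z0)] at hmain
  have hle : Nat.card G ≤ Nat.card Z0 * Nat.card N ^ 2 :=
    Nat.le_of_dvd (Nat.mul_pos Nat.card_pos (pow_pos Nat.card_pos 2))
      ((Nat.mul_dvd_mul_iff_left Nat.card_pos).mp hmain)
  have hZN : Nat.card Z0 ≤ Nat.card N := Subgroup.card_le_of_le inf_le_left
  rw [hcardN]
  refine ⟨hle.trans ((Nat.mul_le_mul_right _ hZN).trans_eq (pow_succ' _ 2).symm), fun hns => ?_⟩
  by_contra hcon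
  apply hns
  have hge : Nat.card N ^ 3 ≤ Nat.card G := Nat.le_of_not_lt hcon
  have hNc : N ≤ Subgroup.center G := by
    have : Nat.card N ≤ Nat.card Z0 := by
      refine Nat.le_of_mul_le_mul_right ?_ (pow_pos (Nat.card_pos (α := N)) 2)
      rw [← pow_succ']; exact hge.trans hle
    exact fun x hx => ((Subgroup.eq_of_le_of_card_ge inf_le_left this).ge hx).2
  have hcenter : Subgroup.center G = N := by
    refine (Subgroup.eq_of_le_of_card_ge hNc ?_).symm
    have h := key N (Subgroup.center G) hNc le_rfl (fun z hz => by rw [← pow_two]; exact hz) hx4 hc2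
    rw [hcardN] at h
    have h' := Nat.le_of_dvd (pow_pos (Nat.mul_pos Nat.card_pos Nat.card_pos) 2) h
    refine Nat.le_of_mul_le_mul_left ?_ (pow_pos (Nat.card_pos (α := N)) 3)
    calc Nat.card N ^ 3 * Nat.card (Subgroup.center G) ≤ Nat.card G * Nat.card (Subgroup.center G) :=
          Nat.mul_le_mul_right _ hge
      _ ≤ (Nat.card N * Nat.card N) ^ 2 := h'
      _ = Nat.card N ^ 3 * Nat.card N := by ring
  have hcomm : commutator G = N := by
    have hle' : commutator G ≤ N := by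
      rw [commutator_eq_closure, Subgroup.closure_le]
      rintro _ ⟨a, b, rfl⟩
      exact hc2 a b
    by_contra hne
    obtain ⟨z, hzN, hzC⟩ := SetLike.exists_of_lt (lt_of_le_of_ne hle' hne)
    obtain ⟨χ, hχz, hχ⟩ := exists_character (Z := N) (fun x => Subtype.ext (by
      show (x : G) * x = 1; rw [← pow_two]; exact x.2)) ((commutator G).subgroupOf N) ⟨z, hzN⟩
      (fun h => hzC (Subgroup.mem_subgroupOf.mp h))
    let φ : G →* ℤˣ :=
      { toFun := fun x => χ ⟨x ^ 2, hx4 x⟩
        map_one' := by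
          rw [← map_one χ]; exact congrArg χ (Subtype.ext (one_pow 2))
        map_mul' := fun x y => by
          have e : (⟨(x * y) ^ 2, hx4 (x * y)⟩ : N) = ⟨x ^ 2, hx4 x⟩ * ⟨y ^ 2, hx4 y⟩ * ⟨⁅y, x⁆, hc2 y x⟩ := Subtype.ext (by
            show (x * y) ^ 2 = x ^ 2 * y ^ 2 * ⁅y, x⁆
            rw [CfsgLib.PGroup.mul_pow_central (h2 y x), show Nat.choose 2 2 = 1 from rfl, pow_one])
          rw [e, map_mul, map_mul, hχ ⟨⁅y, x⁆, hc2 y x⟩ (Subgroup.mem_subgroupOf.mpr
            (Subgroup.commutator_mem_commutator (Subgroup.mem_top y) (Subgroup.mem_top x))), mul_one] }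
    set H := φ.ker with hH
    set Z1 := χ.ker.map N.subtype with hZ1
    have hZ1N : Z1 ≤ N := Subgroup.map_subtype_le _
    have hNH : N ≤ H := fun x (hx : x ^ 2 = 1) => by
      rw [hH, MonoidHom.mem_ker]
      show χ ⟨x ^ 2, hx4 x⟩ = 1
      rw [← map_one χ]; exact congrArg χ (Subtype.ext hx)
    have hhalf : 2 * Nat.card Z1 ≤ Nat.card N := by
      rw [hZ1, Subgroup.card_map_of_injective N.subtype_injective, ← χ.ker.card_mul_index, mul_comm]
      refine Nat.mul_le_mul_left _ (Subgroup.one_lt_index_of_ne_top fun h => ?_)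
      have : χ ⟨z, hzN⟩ = 1 := MonoidHom.mem_ker.mp (h ▸ Subgroup.mem_top _)
      rw [hχz] at this
      exact absurd this (by decide)
    have hGH : Nat.card G ≤ 2 * Nat.card H := by
      rw [← H.card_mul_index, mul_comm 2, hH, Subgroup.index_ker]
      refine Nat.mul_le_mul_left _ ((Subgroup.card_le_of_le le_top).trans (le_of_eq ?_))
      rw [Subgroup.card_top, Nat.card_eq_fintype_card, Fintype.card_units_int]
    have hHkey := key (G := H) (Z1.subgroupOf H) (N.subgroupOf H)
      (fun x hx => Subgroup.mem_center_iff.mpr fun y => Subtype.ext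
        (Subgroup.mem_center_iff.mp (hNc (hZ1N (Subgroup.mem_subgroupOf.mp hx))) y))
      (fun x hx => Subgroup.mem_center_iff.mpr fun y => Subtype.ext
        (Subgroup.mem_center_iff.mp (hNc (Subgroup.mem_subgroupOf.mp hx)) y))
      (fun x hx => Subtype.ext (by
        show (x : G) * x = 1
        rw [← pow_two]; exact hZ1N (Subgroup.mem_subgroupOf.mp hx)))
      (fun x => Subgroup.mem_subgroupOf.mpr ⟨⟨(x : G) ^ 2, hx4 _⟩, x.2, rfl⟩)
      (fun a b => Subgroup.mem_subgroupOf.mpr ⟨⟨⁅(a : G), (b : G)⁆, hc2 _ _⟩,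
        hχ _ (Subgroup.mem_subgroupOf.mpr (Subgroup.commutator_mem_commutator (Subgroup.mem_top _) (Subgroup.mem_top _))), rfl⟩)
    rw [Nat.card_congr (Subgroup.subgroupOfEquivOfLe (hZ1N.trans hNH)).toEquiv,
      Nat.card_congr (Subgroup.subgroupOfEquivOfLe hNH).toEquiv] at hHkey
    have hinv : Nat.card {x : H // x ^ 2 = 1} ≤ Nat.card N :=
      Nat.card_le_card_of_injective (fun x => (⟨(x.1 : G), congrArg Subtype.val x.2⟩ : N))
        fun x y h => by
          have : (x.1 : G) = y.1 := congrArg (fun n : N => (n : G)) h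
          exact Subtype.ext (Subtype.ext this)
    have hpos : 0 < Nat.card {x : H // x ^ 2 = 1} := by
      haveI : Nonempty {x : H // x ^ 2 = 1} := ⟨⟨1, one_pow 2⟩⟩
      exact Nat.card_pos
    have hA := (Nat.le_of_dvd (pow_pos (Nat.mul_pos Nat.card_pos hpos) 2) hHkey).trans
      (Nat.pow_le_pow_left (Nat.mul_le_mul_left _ hinv) 2)
    have hN0 : 0 < Nat.card N := Nat.card_pos
    nlinarith [Nat.mul_le_mul hge (le_refl (Nat.card N)), Nat.mul_le_mul hGH (le_refl (Nat.card N)),
      Nat.mul_le_mul (Nat.mul_le_mul hhalf hhalf) (le_refl (Nat.card N * Nat.card N)), pow_pos hN0 4]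
  refine ⟨hG, ?_, hcomm.trans hcenter.symm⟩
  rw [hcenter]
  refine le_antisymm (CfsgLib.PGroup.frattini_le_of_elementary (p := 2) (fun a b => hc2 a b) hx4) ?_
  rw [← hcomm]
  exact CfsgLib.PGroup.commutator_le_frattini hG

end CfsgLib.Hall.SquareMap
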