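/-
Counting involutions in a 2-group with Frattini subgroup of order two.
-/
import Cfsg.Agent.Hall.SquareMap

set_option autoImplicit false
set_option linter.style.haveILetI false

namespace CfsgLib.Hall.InvolutionCount

open scoped commutatorElement

theorem main {G : Type*} [Group G] [Finite G] (hG : IsPGroup 2 G) (hΦ : Nat.card (frattini G) = 2) (d : ℕ)
    (hd : (frattini G).index = 2 ^ d) :
    (Nat.card {x : G // x ^ 2 = 1} = 2 ^ d ∨ ∃ r : ℕ, 1 ≤ r ∧ 2 * r ≤ d ∧
      (Nat.card {x : G // x ^ 2 = 1} = 2 ^ d + 2 ^ (d - r) ∨ Nat.card {x : G // x ^ 2 = 1} + 2 ^ (d - r) = 2 ^ d)) ∧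
    (∀ r : ℕ, d = 2 * r → (Nat.card {x : G // x ^ 2 = 1} = 2 ^ d + 2 ^ r ∨
      Nat.card {x : G // x ^ 2 = 1} + 2 ^ r = 2 ^ d) → Cfsg.IsExtraspecial 2 G) := by
  classical
  haveI : Fact (Nat.Prime 2) := ⟨Nat.prime_two⟩
  haveI : Fintype G := Fintype.ofFinite G
  obtain ⟨z₀, hz₀, hu⟩ := (Nat.card_eq_two_iff' (1 : frattini G)).mp hΦ
  set z : G := (z₀ : G) with hzdef
  have hz1 : z ≠ 1 := fun h => hz₀ (Subtype.ext h)
  have hmemΦ : ∀ g ∈ frattini G, g = 1 ∨ g = z := fun g hg => by
    by_cases h : g = 1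
    · exact Or.inl h
    · exact Or.inr (congrArg Subtype.val (hu ⟨g, hg⟩ fun e => h (congrArg Subtype.val e)))
  have hz2 : z * z = 1 := by
    have h := pow_card_eq_one' (G := frattini G) (x := z₀)
    rw [hΦ, pow_two] at h
    exact congrArg Subtype.val h
  have hzc : z ∈ Subgroup.center G := Subgroup.mem_center_iff.mpr fun g => by
    have hmem : g * z * g⁻¹ ∈ frattini G := (inferInstance : (frattini G).Normal).conj_mem z z₀.2 g
    rcases hmemΦ _ hmem with h | h
    · exact absurd (conj_eq_one_iff.mp h) hz1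
    · exact mul_inv_eq_iff_eq_mul.mp h
  have hsq : ∀ x : G, x ^ 2 ∈ frattini G := CfsgLib.PGroup.pow_mem_frattini hG
  have hcm : ∀ a b : G, ⁅a, b⁆ ∈ frattini G := fun a b =>
    CfsgLib.PGroup.commutator_le_frattini hG (Subgroup.commutator_mem_commutator (Subgroup.mem_top a) (Subgroup.mem_top b))
  have hΦc : frattini G ≤ Subgroup.center G := fun g hg => by
    rcases hmemΦ g hg with rfl | rfl
    · exact one_mem _
    · exact hzc
  have h2 : ∀ a b : G, ⁅a, b⁆ ∈ Subgroup.center G := fun a b => hΦc (hcm a b)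
  let σ : G → ℤ := fun g => if g = 1 then 1 else -1
  have hσ : ∀ g ∈ frattini G, ∀ h ∈ frattini G, σ (g * h) = σ g * σ h := by
    intro g hg h hh
    rcases hmemΦ g hg with rfl | rfl <;> rcases hmemΦ h hh with rfl | rfl <;> simp [σ, hz1, hz2]
  set ε : G → ℤ := fun x => σ (x ^ 2) with hε
  set S : ℤ := ∑ x, ε x with hS
  have hmul : ∀ x u : G, ε (x * u) = ε x * ε u * σ ⁅u, x⁆ := fun x u => by
    show σ ((x * u) ^ 2) = _
    rw [CfsgLib.PGroup.mul_pow_central (h2 u x), show Nat.choose 2 2 = 1 from rfl, pow_one,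
      hσ _ ((frattini G).mul_mem (hsq x) (hsq u)) _ (hcm u x), hσ _ (hsq x) _ (hsq u)]
  have hεε : ∀ x, ε x * ε x = 1 := fun x => by simp only [hε, σ]; split_ifs <;> norm_num
  -- the square of the sum
  have hin : ∀ u : G, ∑ x : G, σ ⁅u, x⁆ = if u ∈ Subgroup.center G then (Nat.card G : ℤ) else 0 := by
    intro u
    split_ifs with hu'
    · have : ∀ x : G, σ ⁅u, x⁆ = 1 := fun x => if_pos
        (commutatorElement_eq_one_iff_mul_comm.mpr (Subgroup.mem_center_iff.mp hu' x).symm)
      simp [this, Nat.card_eq_fintype_card]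
    · obtain ⟨x₀, hx₀⟩ : ∃ x₀ : G, ⁅u, x₀⁆ ≠ 1 := by
        by_contra hcon
        push Not at hcon
        exact hu' (Subgroup.mem_center_iff.mpr fun g => (commutatorElement_eq_one_iff_mul_comm.mp (hcon g)).symm)
      refine SquareMap.sum_eq_zero_of_neg (Equiv.mulLeft x₀) _ fun x => ?_
      show σ ⁅u, x₀ * x⁆ = - σ ⁅u, x⁆
      rw [CfsgLib.PGroup.commutator_mul_right_central (h2 u x), hσ _ (hcm u x₀) _ (hcm u x),
        show σ ⁅u, x₀⁆ = -1 from if_neg hx₀, neg_one_mul]
  have hS2 : S ^ 2 = (Nat.card G : ℤ) * ∑ u : Subgroup.center G, ε u := by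
    rw [pow_two, hS, Finset.sum_mul_sum]
    calc ∑ x, ∑ y, ε x * ε y = ∑ x, ∑ u, ε u * σ ⁅u, x⁆ := by
          refine Finset.sum_congr rfl fun x _ => ?_
          rw [← Equiv.sum_comp (Equiv.mulLeft x) fun y => ε x * ε y]
          refine Finset.sum_congr rfl fun u _ => ?_
          rw [Equiv.coe_mulLeft, hmul, ← mul_assoc, ← mul_assoc, hεε, one_mul]
      _ = ∑ u, ε u * ∑ x, σ ⁅u, x⁆ := by rw [Finset.sum_comm]; simp only [Finset.mul_sum]
      _ = _ := by
          simp only [hin, mul_ite, mul_zero, Finset.sum_ite, Finset.sum_const_zero, add_zero, Finset.mul_sum]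
          rw [Finset.sum_subtype (p := fun u => u ∈ Subgroup.center G)]
          · exact Finset.sum_congr rfl fun u _ => mul_comm _ _
          · intro u; simp
  have hcount : 2 * (Nat.card {x : G // x ^ 2 = 1} : ℤ) = (Nat.card G : ℤ) + S := by
    have hp : ∀ x : G, ε x + 1 = if x ^ 2 = 1 then 2 else 0 := fun x => by
      simp only [hε, σ]; split_ifs <;> norm_num
    have := Finset.sum_congr rfl fun x (_ : x ∈ (Finset.univ : Finset G)) => hp x
    rw [Finset.sum_add_distrib, ← hS, Finset.sum_ite, Finset.sum_const_zero, add_zero, Finset.sum_const,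
      Finset.sum_const, ← Fintype.card_subtype, Finset.card_univ, nsmul_eq_mul, nsmul_eq_mul, mul_one,
      ← Nat.card_eq_fintype_card, ← Nat.card_eq_fintype_card] at this
    linarith
  have hcard : Nat.card G = 2 ^ (d + 1) := by
    rw [← (frattini G).card_mul_index, hΦ, hd, pow_succ']
  rw [hcard] at hcount hS2
  push_cast at hcount hS2
  -- the possible values of the sum
  obtain ⟨c, hc⟩ := (hG.to_subgroup (Subgroup.center G)).exists_card_eq
  have hS' : S = 0 ∨ S ^ 2 = 2 ^ (d + 1 + c) := by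
    by_cases hall : ∀ u : Subgroup.center G, ε u = 1
    · right
      rw [hS2, Finset.sum_congr rfl fun u _ => hall u, Finset.sum_const, Finset.card_univ,
        ← Nat.card_eq_fintype_card, hc, nsmul_eq_mul, mul_one, pow_add 2 (d + 1) c]
      push_cast; ring
    · left
      push Not at hall
      obtain ⟨w, hw⟩ := hall
      have hw' : ε w = -1 := by
        simp only [hε, σ] at hw ⊢; split_ifs at hw ⊢ <;> simp_all
      refine SquareMap.sum_eq_zero_of_neg (Equiv.mulRight (w : G)) _ fun x => ?_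
      show ε (x * w) = - ε x
      rw [hmul, hw', show σ ⁅(w : G), x⁆ = 1 from if_pos
        (commutatorElement_eq_one_iff_mul_comm.mpr (Subgroup.mem_center_iff.mp w.2 x).symm)]
      ring
  have hcd : c ≤ d + 1 := (Nat.pow_le_pow_iff_right one_lt_two).mp (hc ▸ hcard ▸ Subgroup.card_le_card_group _)
  have hcase : S = 0 ∨ ∃ s, 2 * s = d + 1 + c ∧ s ≤ d ∧ 1 ≤ s ∧ (S = 2 ^ s ∨ S = -2 ^ s) := by
    rcases hS' with h | h
    · exact Or.inl h
    right
    have hdvd : S.natAbs ^ 2 = 2 ^ (d + 1 + c) := by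
      have := congrArg Int.natAbs h
      rwa [Int.natAbs_pow, Int.natAbs_pow] at this
    obtain ⟨s, -, hs⟩ := (Nat.dvd_prime_pow Nat.prime_two).mp
      (show S.natAbs ∣ 2 ^ (d + 1 + c) from hdvd ▸ dvd_pow_self _ two_ne_zero)
    have h2s : 2 * s = d + 1 + c := by
      rw [hs, ← pow_mul] at hdvd
      rw [← Nat.pow_right_injective le_rfl hdvd, mul_comm]
    have hor : S = 2 ^ s ∨ S = -2 ^ s := by
      rcases Int.natAbs_eq S with h' | h' <;> rw [hs] at h' <;> push_cast at h'
      · exact Or.inl h'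
      · exact Or.inr h'
    refine ⟨s, h2s, ?_, ?_, hor⟩
    · by_contra hsd
      have hsd' : s = d + 1 := by omega
      rcases hor with h' | h'
      · have hall : ∀ x : G, x ^ 2 = 1 := by
          intro x
          by_contra hx
          have h1 : Nat.card {y : G // y ^ 2 = 1} < Nat.card G := by
            rw [Nat.card_eq_fintype_card, Nat.card_eq_fintype_card]
            exact Fintype.card_subtype_lt (p := fun y : G => y ^ 2 = 1) hx
          rw [hcard] at h1
          have h1' : ((Nat.card {y : G // y ^ 2 = 1} : ℕ) : ℤ) < 2 ^ (d + 1) := by exact_mod_cast h1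
          rw [h', hsd'] at hcount
          linarith
        have := CfsgLib.PGroup.frattini_le_of_elementary (p := 2) (N := (⊥ : Subgroup G)) (fun a b => ?_) (fun a => ?_)
        · rw [le_bot_iff] at this
          rw [this, Subgroup.card_bot] at hΦ
          exact absurd hΦ (by norm_num)
        · rw [Subgroup.mem_bot, commutatorElement_eq_one_iff_mul_comm]
          have e : ∀ y : G, y⁻¹ = y := fun y => inv_eq_of_mul_eq_one_right (by rw [← pow_two]; exact hall y)
          calc a * b = (a * b)⁻¹ := (e _).symm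
            _ = b * a := by rw [mul_inv_rev, e, e]
        · exact Subgroup.mem_bot.mpr (hall a)
      · haveI : Nonempty {y : G // y ^ 2 = 1} := ⟨⟨1, one_pow 2⟩⟩
        have h1 : (0 : ℤ) < ((Nat.card {y : G // y ^ 2 = 1} : ℕ) : ℤ) := by exact_mod_cast Nat.card_pos
        rw [h', hsd'] at hcount
        linarith
    · omega
  set j := Nat.card {x : G // x ^ 2 = 1}
  have hj : j = 2 ^ d ∨ ∃ t, 2 * t + 1 = d + c ∧ t + 1 ≤ d ∧ (j = 2 ^ d + 2 ^ t ∨ j + 2 ^ t = 2 ^ d) := by
    rcases hcase with h | ⟨s, hs, hsd, hs1, h⟩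
    · left
      rw [h, pow_succ] at hcount
      have h' : ((j : ℕ) : ℤ) = 2 ^ d := by linarith
      exact_mod_cast h'
    · right
      obtain ⟨t, rfl⟩ := Nat.exists_eq_add_of_le hs1
      refine ⟨t, by omega, by omega, ?_⟩
      rcases h with h | h <;> rw [h, pow_succ, pow_add, pow_one] at hcount
      · left
        have h' : ((j : ℕ) : ℤ) = 2 ^ d + 2 ^ t := by linarith
        exact_mod_cast h'
      · right
        have h' : ((j : ℕ) : ℤ) + 2 ^ t = 2 ^ d := by linarith
        exact_mod_cast h'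
  have hc1 : 1 ≤ c := by
    have := Subgroup.card_le_of_le hΦc
    rw [hΦ, hc] at this
    exact (Nat.pow_le_pow_iff_right one_lt_two).mp (show 2 ^ 1 ≤ 2 ^ c by simpa using this)
  refine ⟨?_, fun r hr hjr => ?_⟩
  · rcases hj with h | ⟨t, ht, htd, h⟩
    · exact Or.inl h
    · refine Or.inr ⟨d - t, by omega, by omega, ?_⟩
      rwa [show d - (d - t) = t by omega]
  · rcases hj with h | ⟨t, ht, htd, h⟩
    · exfalso
      have := Nat.one_le_two_pow (n := r)
      rcases hjr with h' | h' <;> omega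
    have htr : t = r := by
      apply Nat.pow_right_injective (le_refl 2)
      show 2 ^ t = 2 ^ r
      have := Nat.one_le_two_pow (n := r)
      have := Nat.one_le_two_pow (n := t)
      rcases hjr with h' | h' <;> rcases h with h'' | h'' <;> omega
    have hc' : c = 1 := by omega
    have hZ : Subgroup.center G = frattini G :=
      (Subgroup.eq_of_le_of_card_ge hΦc (by rw [hc, hc', hΦ]; norm_num)).symm
    have hcomm : commutator G = frattini G := by
      refine Subgroup.eq_of_le_of_card_ge (CfsgLib.PGroup.commutator_le_frattini hG) ?_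
      rw [hΦ]
      refine (Subgroup.one_lt_card_iff_ne_bot _).mpr fun hbot => ?_
      have htop : Subgroup.center G = ⊤ := eq_top_iff.mpr fun g _ => Subgroup.mem_center_iff.mpr fun x =>
        commutatorElement_eq_one_iff_mul_comm.mp (Subgroup.mem_bot.mp
          (hbot ▸ Subgroup.commutator_mem_commutator (Subgroup.mem_top x) (Subgroup.mem_top g)))
      rw [htop, Subgroup.card_top, hcard] at hc
      have := Nat.pow_right_injective (le_refl 2) hc
      omega
    exact ⟨⟨hG, hZ.symm, hcomm.trans hZ.symm⟩, by rw [hc, hc', pow_one]⟩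

end CfsgLib.Hall.InvolutionCount
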