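/-
`p`-complements in `p`-solvable groups: existence, domination, conjugacy.
-/
import Cfsg.Agent.PCore.PSolvable
import Cfsg.Agent.CoprimeAction.Conjugacy
import Cfsg.Agent.Hall.Basic

set_option autoImplicit false
set_option linter.style.haveILetI false

namespace CfsgLib.Hall.PComplement

open scoped Pointwise

universe u

theorem card_smul_eq {G : Type*} [Group G] (g : G) (H : Subgroup G) :
    Nat.card (MulAut.conj g • H : Subgroup G) = Nat.card H :=
  (Nat.card_congr (Subgroup.equivSMul (MulAut.conj g) H).toEquiv).symm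

theorem main_aux : ∀ (k : ℕ) {G : Type u} [Group G] [Finite G] {p : ℕ} [Fact p.Prime], Nat.card G = k →
    Cfsg.IsPSolvable p G →
    (∃ H : Subgroup G, (Nat.card H).Coprime p ∧ ∃ n : ℕ, H.index = p ^ n) ∧
    ∀ H U : Subgroup G, (Nat.card H).Coprime p → (∃ n : ℕ, H.index = p ^ n) → (Nat.card U).Coprime p →
      ∃ g : G, U ≤ MulAut.conj g • H := by
  intro k
  induction k using Nat.strong_induction_on with
  | _ k IH =>
  intro G _ _ p _ hk hG
  subst hk
  have hp : p.Prime := Fact.out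
  rcases subsingleton_or_nontrivial G with hs | hs
  · refine ⟨⟨⊥, by simp, 0, by simp⟩, fun H U _ _ _ => ⟨1, (Subsingleton.elim U _).le⟩⟩
  obtain ⟨N, hNn, hN1, hN⟩ : ∃ N : Subgroup G, N.Normal ∧ N ≠ ⊥ ∧ (IsPGroup p N ∨ (Nat.card N).Coprime p) := by
    rcases CfsgLib.PCore.cores_ne_bot hG with h | h
    · haveI := CfsgLib.PCore.pCore_characteristic p G
      exact ⟨_, inferInstance, h, Or.inl (CfsgLib.PCore.isPGroup_pCore p G)⟩
    · exact ⟨_, (CfsgLib.PCore.pPrimeCore_mem p G).1, h, Or.inr (CfsgLib.PCore.pPrimeCore_mem p G).2⟩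
  haveI := hNn
  set f := QuotientGroup.mk' N with hf
  have hfs : Function.Surjective f := QuotientGroup.mk'_surjective N
  have hlt : Nat.card (G ⧸ N) < Nat.card G := by
    rw [N.card_eq_card_quotient_mul_card_subgroup]
    exact lt_mul_of_one_lt_right Nat.card_pos (N.one_lt_card_iff_ne_bot.mpr hN1)
  obtain ⟨⟨Hb, hHb, n, hn⟩, hdom⟩ := IH _ hlt (G := G ⧸ N) (p := p) rfl (CfsgLib.PCore.isPSolvable_quotient hG N)
  have himg : ∀ H : Subgroup G, (Nat.card H).Coprime p → (∃ n : ℕ, H.index = p ^ n) →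
      (Nat.card (H.map f)).Coprime p ∧ ∃ n : ℕ, (H.map f).index = p ^ n := by
    rintro H h1 ⟨m, hm⟩
    refine ⟨h1.coprime_dvd_left (H.card_map_dvd f), ?_⟩
    obtain ⟨i, -, hi⟩ := (Nat.dvd_prime_pow hp).mp (hm ▸ H.index_map_dvd hfs)
    exact ⟨i, hi⟩
  have hmem : ∀ H U : Subgroup G, (Nat.card H).Coprime p → (∃ n : ℕ, H.index = p ^ n) → (Nat.card U).Coprime p →
      ∃ g : G, U ≤ MulAut.conj g • (H ⊔ N) := by
    intro H U h1 h2 h3
    obtain ⟨gb, hgb⟩ := hdom (H.map f) (U.map f) (himg H h1 h2).1 (himg H h1 h2).2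
      (h3.coprime_dvd_left (U.card_map_dvd f))
    obtain ⟨g, rfl⟩ := hfs gb
    refine ⟨g, fun u hu => ?_⟩
    obtain ⟨_, ⟨h, hh, rfl⟩, he⟩ := hgb ⟨u, hu, rfl⟩
    have he' : f (g * h * g⁻¹) = f u := by rw [map_mul, map_mul, map_inv]; exact he
    have hd : (g * h * g⁻¹)⁻¹ * u ∈ N := QuotientGroup.eq.mp he'
    refine ⟨h * (g⁻¹ * ((g * h * g⁻¹)⁻¹ * u) * g), Subgroup.mul_mem_sup hh
      (Subgroup.Normal.conj_mem' inferInstance _ hd g), ?_⟩
    change g * (h * (g⁻¹ * ((g * h * g⁻¹)⁻¹ * u) * g)) * g⁻¹ = u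
    group
  rcases hN with hNp | hNp'
  swap
  · -- `p'`-core
    have hcN : ∀ H : Subgroup G, (Nat.card H).Coprime p → (∃ n : ℕ, H.index = p ^ n) → N ≤ H := by
      rintro H h1 ⟨m, hm⟩
      have hsup : (Nat.card (H ⊔ N : Subgroup G)).Coprime p := by
        rw [sup_comm]
        exact (hNp'.mul_left h1).coprime_dvd_left ⟨_, (card_sup_mul_card_inf N H).symm⟩
      have hrel : H.relIndex (H ⊔ N) = 1 := by
        refine Nat.eq_one_of_dvd_coprimes (hsup.pow_right m) ?_ ?_
        · rw [Subgroup.relIndex]; exact Subgroup.index_dvd_card _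
        · rw [← hm]; exact ⟨(H ⊔ N).index, (Subgroup.relIndex_mul_index le_sup_left).symm⟩
      exact le_sup_right.trans (Subgroup.relIndex_eq_one.mp hrel)
    refine ⟨⟨Hb.comap f, ?_, n, ?_⟩, fun H U h1 h2 h3 => ?_⟩
    · rw [card_comap_mk']; exact hHb.mul_left hNp'
    · rw [Subgroup.index_comap_of_surjective _ hfs, hn]
    · obtain ⟨g, hg⟩ := hmem H U h1 h2 h3
      exact ⟨g, by rwa [sup_eq_left.mpr (hcN H h1 h2)] at hg⟩
  · -- `p`-core
    obtain ⟨e, he⟩ := hNp.exists_card_eq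
    haveI : Group.IsSolvable N := by
      haveI := hNp.isNilpotent
      infer_instance
    refine ⟨?_, fun H U h1 h2 h3 => ?_⟩
    · set M := Hb.comap f with hM
      have hNM : N ≤ M := fun x hx => by
        rw [hM, Subgroup.mem_comap, show f x = 1 from (QuotientGroup.eq_one_iff x).mpr hx]
        exact Hb.one_mem
      have hMc : Nat.card M = Nat.card Hb * Nat.card N := card_comap_mk' N Hb
      have hNi : (N.subgroupOf M).index = Nat.card Hb := by
        have h := (N.subgroupOf M).card_mul_index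
        rw [Nat.card_congr (Subgroup.subgroupOfEquivOfLe hNM).toEquiv, hMc, mul_comm (Nat.card Hb)] at h
        exact Nat.eq_of_mul_eq_mul_left Nat.card_pos h
      have hNc : Nat.card (N.subgroupOf M) = p ^ e := by
        rw [Nat.card_congr (Subgroup.subgroupOfEquivOfLe hNM).toEquiv, he]
      obtain ⟨K, hK⟩ := Subgroup.exists_right_complement'_of_coprime (N := N.subgroupOf M)
        (by rw [hNc, hNi]; exact (hHb.pow_right e).symm)
      refine ⟨K.map M.subtype, ?_, n + e, ?_⟩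
      · rw [Subgroup.card_map_of_injective M.subtype_injective, ← hK.symm.index_eq_card, hNi]; exact hHb
      · rw [Subgroup.index_map_subtype, hK.index_eq_card, hNc, hM, Subgroup.index_comap_of_surjective _ hfs, hn,
          ← pow_add, add_comm]
    · obtain ⟨g, hg⟩ := hmem H U h1 h2 h3
      set U' := MulAut.conj g⁻¹ • U with hU'
      have hU'le : U' ≤ H ⊔ N := by
        rw [hU']
        rintro _ ⟨u, hu, rfl⟩
        obtain ⟨v, hv, hvu⟩ := hg hu
        have hvu' : g * v * g⁻¹ = u := hvu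
        change g⁻¹ * u * g⁻¹⁻¹ ∈ H ⊔ N
        rw [← hvu']
        simpa [mul_assoc] using hv
      set W := U' ⊔ N with hW
      haveI : (N.subgroupOf W).Normal := inferInstance
      have hNW : N ≤ W := le_sup_right
      have hcN : Nat.card (N.subgroupOf W) = p ^ e := by
        rw [Nat.card_congr (Subgroup.subgroupOfEquivOfLe hNW).toEquiv, he]
      have hUN : U' ⊓ N = ⊥ := Subgroup.inf_eq_bot_of_coprime (by
        rw [he, hU', card_smul_eq]; exact h3.pow_right e)
      have hWle : W ≤ H ⊔ N := sup_le hU'le le_sup_right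
      set V := H ⊓ W with hV
      have hVN : V ⊓ N = ⊥ := Subgroup.inf_eq_bot_of_coprime (by
        rw [he]; exact (h1.coprime_dvd_left (Subgroup.card_dvd_of_le inf_le_left)).pow_right e)
      have hVsup : V ⊔ N = W := by
        refine le_antisymm (sup_le inf_le_right le_sup_right) fun w hw => ?_
        obtain ⟨m, hm, h, hh, rfl⟩ := exists_mul_of_mem_sup (A := N) (H := H)
          (by rw [Subgroup.normalizer_eq_top_iff.mpr hNn]; exact le_top)
          (show w ∈ N ⊔ H by rw [sup_comm]; exact hWle hw)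
        refine Subgroup.mul_mem _ (Subgroup.mem_sup_right hm) (Subgroup.mem_sup_left ⟨hh, ?_⟩)
        simpa using W.mul_mem (W.inv_mem (hNW hm)) hw
      have hcompl : ∀ X : Subgroup G, X ≤ W → X ⊓ N = ⊥ → X ⊔ N = W →
          Subgroup.IsComplement' (N.subgroupOf W) (X.subgroupOf W) := by
        intro X hXW hXN hXs
        refine Subgroup.isComplement'_of_disjoint_and_mul_eq_univ (disjoint_iff.mpr ?_) ?_
        · rw [show N.subgroupOf W ⊓ X.subgroupOf W = (N ⊓ X).subgroupOf W from rfl, inf_comm, hXN,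
            Subgroup.bot_subgroupOf]
        · rw [← Subgroup.normal_mul, ← Subgroup.subgroupOf_sup hNW hXW, sup_comm, hXs, Subgroup.subgroupOf_self,
            Subgroup.coe_top]
      have hcU := hcompl U' le_sup_left hUN rfl
      have hNiW : (N.subgroupOf W).index = Nat.card U' := by
        rw [hcU.symm.index_eq_card, Nat.card_congr (Subgroup.subgroupOfEquivOfLe le_sup_left).toEquiv]
      haveI : Group.IsSolvable (N.subgroupOf W) :=
        Group.isSolvable_of_isSolvable_injective (f := (Subgroup.subgroupOfEquivOfLe hNW).toMonoidHom)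
          (Subgroup.subgroupOfEquivOfLe hNW).injective
      obtain ⟨w, hw⟩ := CfsgLib.CoprimeAction.complement_conj (N.subgroupOf W)
        (by rw [hcN, hNiW, hU', card_smul_eq]; exact (h3.pow_right e).symm) (Or.inl inferInstance)
        (hcompl V inf_le_right hVN hVsup) hcU
      refine ⟨g * w, fun u hu => ?_⟩
      have hu' : g⁻¹ * u * g ∈ U' := ⟨u, hu, by simp [mul_assoc]⟩
      have h5 : (⟨g⁻¹ * u * g, Subgroup.mem_sup_left hu'⟩ : W) ∈ U'.subgroupOf W := hu'
      rw [← hw] at h5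
      obtain ⟨v, hv, hvu⟩ := h5
      refine ⟨(v : G), hv.1, ?_⟩
      have hvu' : (w : G) * v * (w : G)⁻¹ = g⁻¹ * u * g := congrArg Subtype.val hvu
      change g * (w : G) * v * (g * (w : G))⁻¹ = u
      calc g * (w : G) * v * (g * (w : G))⁻¹ = g * ((w : G) * v * (w : G)⁻¹) * g⁻¹ := by group
        _ = u := by rw [hvu']; group

theorem main {G : Type*} [Group G] [Finite G] {p : ℕ} [Fact p.Prime] (hG : Cfsg.IsPSolvable p G) :
    (∃ H : Subgroup G, (Nat.card H).Coprime p ∧ ∃ n : ℕ, H.index = p ^ n) ∧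
    (∀ H₁ H₂ : Subgroup G, (Nat.card H₁).Coprime p → (∃ n : ℕ, H₁.index = p ^ n) → (Nat.card H₂).Coprime p →
      (∃ n : ℕ, H₂.index = p ^ n) → ∃ g : G, H₂ = H₁.map (MulAut.conj g).toMonoidHom) ∧
    (∀ U : Subgroup G, (Nat.card U).Coprime p → ∃ H : Subgroup G, (Nat.card H).Coprime p ∧
      (∃ n : ℕ, H.index = p ^ n) ∧ ∃ g : G, U.map (MulAut.conj g).toMonoidHom ≤ H) := by
  obtain ⟨⟨H, hH, hHi⟩, hdom⟩ := main_aux _ rfl hG
  refine ⟨⟨H, hH, hHi⟩, fun H₁ H₂ h1 h1i h2 h2i => ?_, fun U hU => ?_⟩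
  · obtain ⟨g, hg⟩ := hdom H₁ H₂ h1 h1i h2
    obtain ⟨g', hg'⟩ := hdom H₂ H₁ h2 h2i h1
    refine ⟨g, Subgroup.eq_of_le_of_card_ge hg ?_⟩
    have h3 : Nat.card H₁ ≤ Nat.card H₂ := (Subgroup.card_le_of_le hg').trans (card_smul_eq g' H₂).le
    exact (card_smul_eq g H₁).le.trans h3
  · obtain ⟨g, hg⟩ := hdom H U hH hHi hU
    refine ⟨H, hH, hHi, g⁻¹, ?_⟩
    rintro _ ⟨u, hu, rfl⟩
    obtain ⟨v, hv, hvu⟩ := hg hu
    have hvu' : g * v * g⁻¹ = u := hvu
    rw [← hvu']
    simpa [mul_assoc] using hv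

end CfsgLib.Hall.PComplement
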