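/-
Supersolvable Hall subgroups of the same order are conjugate (P. Hall).
-/
import Cfsg.Agent.Hall.Basic
import Cfsg.Agent.OrderType.Tower

set_option autoImplicit false
set_option linter.style.haveILetI false

namespace CfsgLib.Hall

open scoped Pointwise

universe u

theorem isSupersolvable_of_equiv {G H : Type*} [Group G] [Group H] (e : G ≃* H)
    (hG : Cfsg.IsSupersolvable G) : Cfsg.IsSupersolvable H := by
  obtain ⟨n, S, h0, hl, hn, hs⟩ := hG
  refine ⟨n, fun i => (S i).map e.toMonoidHom, by simp [h0], ?_,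
    fun i => (hn i).map _ e.surjective, fun i => ?_⟩
  · simp only [hl]; exact Subgroup.map_top_of_surjective _ e.surjective
  · obtain ⟨g, hg⟩ := hs i
    refine ⟨e g, ?_⟩
    simp only [hg, Subgroup.map_sup, MonoidHom.map_zpowers]
    rfl

theorem supersolvable_hall_conj_aux : ∀ (k : ℕ) {G : Type u} [Group G] [Finite G] (H K : Subgroup G),
    Nat.card H = k → Cfsg.IsSupersolvable H → Cfsg.IsSupersolvable K → Nat.card K = k →
    (Nat.card H).Coprime H.index → ∃ x : G, MulAut.conj x • H = K := by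
  intro k
  induction k using Nat.strong_induction_on with
  | _ k IH =>
  intro G _ _ H K hHk hH hK hKk hco
  rcases eq_or_ne k 1 with rfl | hk1
  · exact ⟨1, by rw [map_one, one_smul, Subgroup.card_eq_one.mp hHk, Subgroup.card_eq_one.mp hKk]⟩
  have hk0 : 0 < k := hHk ▸ Nat.card_pos
  obtain ⟨p, hpk, hpmax⟩ := (k.primeFactors).exists_max_image id
    (Nat.nonempty_primeFactors.mpr (by omega))
  have hp := Nat.prime_of_mem_primeFactors hpk
  haveI := Fact.mk hp
  have hpd : p ∣ k := Nat.dvd_of_mem_primeFactors hpk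
  have hKi : K.index = H.index := Nat.eq_of_mul_eq_mul_left hk0 (by
    conv_lhs => rw [← hKk, K.card_mul_index, ← H.card_mul_index, hHk])
  -- Sylow p-subgroup of G inside each Hall subgroup, normal there
  have key : ∀ L : Subgroup G, Cfsg.IsSupersolvable L → Nat.card L = k → k.Coprime L.index →
      ∃ P : Sylow p G, (P : Subgroup G) ≤ L ∧ L ≤ Subgroup.normalizer ((P : Subgroup G) : Set G) := by
    intro L hL hLk hLco
    obtain ⟨N, hNn, hN1, hN2⟩ := CfsgLib.OrderType.exists_normal_large p _ L rfl hL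
    have hdL : ∀ r, r.Prime → r ∣ Nat.card N → r ∣ k := fun r hr hd => by
      rw [← hLk]; exact hd.trans N.card_subgroup_dvd_card
    have hNp : IsPGroup p N := by
      refine IsPGroup.of_card (n := (Nat.card N).primeFactorsList.length) ?_
      refine Nat.eq_prime_pow_of_unique_prime_dvd Nat.card_pos.ne' fun {d} hd hdN => ?_
      exact le_antisymm (hpmax d (Nat.mem_primeFactors.mpr ⟨hd, hdL d hd hdN, hk0.ne'⟩)) (hN1 d hd hdN)
    have hidx : ¬ p ∣ (N.map L.subtype).index := by
      rw [Subgroup.index_map_subtype, hp.dvd_mul]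
      rintro (h | h)
      · exact lt_irrefl p (hN2 p hp h)
      · exact hp.ne_one (Nat.eq_one_of_dvd_coprimes hLco hpd h)
    refine ⟨(hNp.map L.subtype).toSylow hidx, Subgroup.map_subtype_le _, ?_⟩
    change L ≤ Subgroup.normalizer ((N.map L.subtype : Subgroup G) : Set G)
    rw [← Subgroup.normal_subgroupOf_iff_le_normalizer (Subgroup.map_subtype_le N), Subgroup.subgroupOf,
      Subgroup.comap_map_eq_self_of_injective L.subtype_injective]
    exact hNn
  obtain ⟨P, hPH, hHN⟩ := key H hH hHk (hHk ▸ hco)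
  obtain ⟨Q, hQK, hKN⟩ := key K hK hKk (hKi ▸ hHk ▸ hco)
  obtain ⟨g, hg⟩ := MulAction.exists_smul_eq G Q P
  -- move K into N(P)
  set K' := MulAut.conj g • K with hK'
  have hQP : MulAut.conj g • (Q : Subgroup G) = P := by rw [← hg]; rfl
  have hPK : (P : Subgroup G) ≤ K' := hQP ▸ Subgroup.pointwise_smul_le_pointwise_smul_iff.mpr hQK
  have hK'N : K' ≤ Subgroup.normalizer ((P : Subgroup G) : Set G) := by
    rintro _ ⟨x, hx, rfl⟩
    rw [Subgroup.mem_normalizer_iff, ← hQP]
    intro y
    have hx' := Subgroup.mem_normalizer_iff.mp (hKN hx)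
    simp only [Subgroup.mem_pointwise_smul_iff_inv_smul_mem, MulAut.smul_def, MulAut.inv_apply,
      MulAut.conj_symm_apply]
    change g⁻¹ * y * g ∈ Q ↔ g⁻¹ * (g * x * g⁻¹ * y * (g * x * g⁻¹)⁻¹) * g ∈ Q
    rw [show g⁻¹ * (g * x * g⁻¹ * y * (g * x * g⁻¹)⁻¹) * g = x * (g⁻¹ * y * g) * x⁻¹ by group]
    exact hx' _
  set M := Subgroup.normalizer ((P : Subgroup G) : Set G) with hM
  haveI : ((P : Subgroup G).subgroupOf M).Normal := Subgroup.normal_in_normalizer
  set P' := (P : Subgroup G).subgroupOf M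
  set f := QuotientGroup.mk' P'
  have hPc : 1 < Nat.card (P : Subgroup G) :=
    (Subgroup.one_lt_card_iff_ne_bot _).mpr (P.ne_bot_of_dvd_card
      (hpd.trans (hHk ▸ H.card_subgroup_dvd_card)))
  have himg : ∀ L : Subgroup G, (P : Subgroup G) ≤ L → L ≤ M →
      ((L.subgroupOf M).map f).comap f = L.subgroupOf M ∧
      Nat.card ((L.subgroupOf M).map f) * Nat.card (P : Subgroup G) = Nat.card L := by
    intro L hPL hLM
    have hc : ((L.subgroupOf M).map f).comap f = L.subgroupOf M := by
      rw [Subgroup.comap_map_eq, QuotientGroup.ker_mk', sup_eq_left]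
      exact fun x hx => hPL hx
    refine ⟨hc, ?_⟩
    have h1 := card_comap_mk' P' ((L.subgroupOf M).map f)
    rw [hc, Nat.card_congr (Subgroup.subgroupOfEquivOfLe hLM).toEquiv,
      Nat.card_congr (Subgroup.subgroupOfEquivOfLe (Subgroup.le_normalizer : (P : Subgroup G) ≤ M)).toEquiv] at h1
    rw [h1, mul_comm]
  have hK'c : Nat.card K' = k := by rw [hK', card_conj_smul, hKk]
  obtain ⟨hHc, hHm⟩ := himg H hPH hHN
  obtain ⟨hKc, hKm⟩ := himg K' hPK hK'N
  set a := Nat.card ((H.subgroupOf M).map f) with ha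
  have hak : a < k := by
    rw [← hHk, ← hHm]
    exact lt_mul_of_one_lt_right Nat.card_pos hPc
  have hK'a : Nat.card ((K'.subgroupOf M).map f) = a :=
    Nat.eq_of_mul_eq_mul_right Nat.card_pos (hKm.trans (hK'c.trans (hHk.symm.trans hHm.symm)))
  have hsupH : ∀ L : Subgroup G, L ≤ M → Cfsg.IsSupersolvable L →
      Cfsg.IsSupersolvable ((L.subgroupOf M).map f) := by
    intro L hLM hL
    have h1 : Cfsg.IsSupersolvable (L.subgroupOf M) :=
      isSupersolvable_of_equiv (Subgroup.subgroupOfEquivOfLe hLM).symm hL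
    exact isSupersolvable_of_equiv
      (QuotientGroup.quotientKerEquivOfSurjective _ (f.subgroupMap_surjective (L.subgroupOf M)))
      (CfsgLib.OrderType.isSupersolvable_quotient h1 _)
  have hK's : Cfsg.IsSupersolvable K' :=
    isSupersolvable_of_equiv (Subgroup.equivSMul (MulAut.conj g) K) hK
  have hcoa : a.Coprime ((H.subgroupOf M).map f).index := by
    refine (Nat.Coprime.coprime_dvd_left (Dvd.intro _ hHm) hco).coprime_dvd_right ?_
    refine ((H.subgroupOf M).index_map_dvd (QuotientGroup.mk'_surjective P')).trans ?_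
    exact Subgroup.relIndex_dvd_index_of_le hHN
  obtain ⟨x, hx⟩ := IH a hak _ _ rfl (hsupH H hHN hH) (hsupH K' hK'N hK's) hK'a hcoa
  obtain ⟨m, rfl⟩ := QuotientGroup.mk'_surjective P' x
  refine ⟨g⁻¹ * (m : G), ?_⟩
  rw [map_mul, mul_smul]
  have hmain : MulAut.conj (m : G) • H = K' := by
    apply Subgroup.eq_of_le_of_card_ge
    · rintro _ ⟨y, hy, rfl⟩
      have hyM : y ∈ M := hHN hy
      have h1 : f (m * ⟨y, hyM⟩ * m⁻¹) ∈ (K'.subgroupOf M).map f := by
        rw [← hx, map_mul, map_mul, map_inv]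
        exact ⟨f ⟨y, hyM⟩, ⟨⟨y, hyM⟩, hy, rfl⟩, rfl⟩
      have h2 : m * ⟨y, hyM⟩ * m⁻¹ ∈ K'.subgroupOf M := by rw [← hKc]; exact h1
      exact h2
    · rw [hK'c, card_conj_smul, hHk]
  rw [hmain, hK', ← mul_smul, ← map_mul, inv_mul_cancel, map_one, one_smul]

theorem supersolvable_hall_conj {G : Type*} [Group G] [Finite G] (H K : Subgroup G)
    (hH : Cfsg.IsSupersolvable H) (hK : Cfsg.IsSupersolvable K) (hcard : Nat.card H = Nat.card K)
    (hHall : (Nat.card H).Coprime H.index) : ∃ x : G, MulAut.conj x • H = K :=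
  supersolvable_hall_conj_aux _ H K rfl hH hK hcard.symm hHall

end CfsgLib.Hall
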